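import Mathlib
import Cfsg.Agent.Lib.Mod.Unip
import Cfsg.Agent.Lib.Mod.Shult
import Cfsg.Agent.Lib.Mod.Faithful
import Cfsg.Agent.Lib.Reg.Wreath
import Cfsg.Agent.Lib.Frob.Complement
import Cfsg.Agent.Lib.PGrp.ConjOrder

/-! Exceptional elements of a Sylow subgroup of a `p`-solvable linear group (Hall–Higman). -/

namespace Cfsg.Agent.Mod

open Module Polynomial Subgroup
open scoped commutatorElement

universe u

section Groups

variable {G : Type*} [Group G] [Finite G] {p : ℕ} [hp : Fact p.Prime]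

theorem commutator_commutator_le_of_relIndex_lt {N R Y : Subgroup G} (hN : IsPGroup p N)
    (hR : N ≤ normalizer (R : Set G)) (hY : N ≤ normalizer (Y : Set G))
    (hRY : R ≤ normalizer (Y : Set G)) (h : Y.relIndex R < p ^ 2) : ⁅R, ⁅N, N⁆⁆ ≤ Y := by
  haveI := Core.normal_subgroupOf_of_le_normalizer hRY
  letI : MulAction N (R ⧸ Y.subgroupOf R) := MulAction.compHom _ (Coprime.sectionHom hR hY)
  have h1 : derivedSeries N 1 ≤ (Coprime.sectionHom hR hY).ker := fun a ha => by
    ext e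
    refine Reg.derivedSeries_le_of_index_lt 1 N hN (MulAction.stabilizer N e) ?_ ha
    rw [MulAction.index_stabilizer]
    exact (Set.ncard_le_card _).trans_lt h
  rw [commutator_le]
  intro g hg a ha
  rw [← show dser N 1 = ⁅N, N⁆ from rfl, ← map_derivedSeries_subtype] at ha
  obtain ⟨a, ha, rfl⟩ := ha
  exact (Coprime.mem_ker_sectionHom hR hY a).1 (h1 ha) g hg

theorem exists_critical_of_central (hG : IsPSolvable p G) (h0 : pCore p G = ⊥) {P : Subgroup G}
    (hP : IsPGroup p P) {z : G} (hz : z ∈ P) (hzP : z ∈ centralizer (P : Set G)) (hz1 : z ≠ 1) :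
    ∃ q : ℕ, q.Prime ∧ q ≠ p ∧ ∃ R : Subgroup G, IsPGroup q R ∧ P ≤ normalizer (R : Set G) ∧
      R ≠ ⊥ ∧ ⁅R, zpowers z⁆ = R ∧ ⁅R, R⁆ ≤ centralizer (R : Set G) ∧
      R ⊓ centralizer (zpowers z : Set G) ≤ centralizer (R : Set G) := by
  have hcop := Core.coprime_card_of_isPGroup hP (Core.coprime_card_pPrimeCore (G := G) p)
  have hY := zpowers_le.2 hz
  by_contra hne
  refine hz1 (mem_bot.1 (Core.inf_eq_bot_of_coprime_card hcop ▸ mem_inf.2 ⟨hz,
    Coprime.centralizer_pPrimeCore_le hG h0 (zpowers_le.1 (le_centralizer_iff.1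
      (Coprime.le_of_forall_isSylowIn fun q hq hd => ?_)))⟩))
  haveI := Fact.mk hq
  obtain ⟨Q, hQ, hPQ⟩ := Coprime.exists_invariant_sylow q le_normalizer_of_normal hcop
    (Or.inl (Coprime.isSolvable_of_isPGroup hP))
  refine ⟨Q, hQ, le_centralizer_iff.1 (Coprime.commutator_eq_bot_iff_le_centralizer'.1 ?_)⟩
  by_contra h
  obtain ⟨R, hRQ, h1, h2, h3, h4, h5, -⟩ := exists_minimal_noncentralized
    (Coprime.isSolvable_of_isPGroup hQ.2.1) hPQ hY
    (Coprime.centralizer_le_normalizer_of_le (zpowers_le.2 hzP))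
    (Coprime.coprime_mono hcop hY hQ.1) h
  exact hne ⟨q, hq, fun e => Core.not_dvd_card_pPrimeCore (e ▸ hd), R, hQ.2.1.to_le hRQ, h1, h2, h3,
    (le_inf (Coprime.commutator_le_of_le_normalizer le_normalizer) h4).trans h5, h5⟩

theorem sq_le_card_commutator (hp2 : p ≠ 2) {M : Subgroup G} (hM : IsMulCommutative M)
    (hpM : ¬ p ∣ Nat.card M) {g y w : G} {m : ℕ} (ho : orderOf g = p ^ (m + 1))
    (hg : g ∈ normalizer (M : Set G)) (hy : y ∈ normalizer (M : Set G))
    (hw : w = ⁅y, g ^ p ^ m⁆) (hwy : Commute w y) (hwg : Commute w g)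
    (hwM : w ∉ centralizer (M : Set G)) :
    (p ^ (m + 1) + 1) ^ 2 ≤ Nat.card (⁅M, zpowers (g ^ p ^ m)⁆ : Subgroup G) := by
  set a := g ^ p ^ m with ha
  have hwa : Commute w a := hwg.pow_right _
  have hw1 : w ≠ 1 := fun e => hwM (e ▸ one_mem _)
  have hoa : orderOf a = p := orderOf_pow_pow hp.out ho
  have hap : a ^ p = 1 := hoa ▸ pow_orderOf_eq_one a
  have hwp : w ^ p = 1 := by
    rw [hw, ← PGrp.commutatorElement_pow_right_of_commute (hw ▸ hwa), hap, commutatorElement_one_right]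
  have how : orderOf w = p := orderOf_eq_prime hwp hw1
  have haM : a ∈ normalizer (M : Set G) := pow_mem hg _
  have hwM' : w ∈ normalizer (M : Set G) :=
    hw ▸ mul_mem (mul_mem (mul_mem hy haM) (inv_mem hy)) (inv_mem haM)
  have hcop : ∀ {A B : Subgroup G}, IsPGroup p A → B ≤ M → (Nat.card A).Coprime (Nat.card B) :=
    fun hA hB => Core.coprime_card_of_isPGroup hA
      ((hp.out.coprime_iff_not_dvd.2 hpM).symm.coprime_dvd_left (card_dvd_of_le hB))
  have hW : IsPGroup p (zpowers w) := Core.isPGroup_zpowers_of_orderOf (how.trans (pow_one p).symm)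
  have hA : IsPGroup p (zpowers a) := Core.isPGroup_zpowers_of_orderOf (hoa.trans (pow_one p).symm)
  have hz : ∀ {x s : G}, Commute s x → x ∈ normalizer (zpowers s : Set G) := fun h =>
    centralizer_le_normalizer _ (le_centralizer_iff.1 (zpowers_le.2 (zpowers_le.1
      (le_centralizer_iff.1 (zpowers_le.2 (by
        rw [zpowers_eq_closure, centralizer_closure]
        exact mem_centralizer_singleton_iff.2 h.symm))))) (mem_zpowers _))
  set K := ⁅M, zpowers w⁆
  have hKM : K ≤ M := Coprime.commutator_le_of_le_normalizer (zpowers_le.2 hwM')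
  have hKn : ∀ {x : G}, x ∈ normalizer (M : Set G) → Commute w x → x ∈ normalizer (K : Set G) :=
    fun h1 h2 => Core.le_normalizer_commutator (zpowers_le.2 h1) (zpowers_le.2 (hz h2))
      (mem_zpowers _)
  have hK0 : ∀ c ∈ K, ∀ i, 0 < i → i < p → Commute c (w ^ i) → c = 1 := fun c hc i h1 h2 h3 => by
    rw [← mem_bot, ← Coprime.centralizer_inf_commutator_eq_bot (zpowers_le.2 hwM') (hcop hW le_rfl) hM]
    refine mem_inf.2 ⟨mem_inf.2 ⟨hKM hc, ?_⟩, hc⟩
    rw [← Frob.zpowers_eq_of_prime_orderOf (how.symm ▸ hp.out) (npow_mem_zpowers w i)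
      (pow_ne_one_of_lt_orderOf h1.ne' (how.symm ▸ h2)), zpowers_eq_closure, centralizer_closure]
    exact mem_centralizer_singleton_iff.2 h3
  have hE : zpowers a ≤ normalizer (zpowers w : Set G) := zpowers_le.2 (hz hwa)
  have h1 : ∃ j, ∃ c ∈ K, c ≠ 1 ∧ Commute c (w ^ j * a) := by
    obtain ⟨e, he, he1, h⟩ := Coprime.exists_inf_centralizer_ne_bot (A := zpowers w ⊔ zpowers a)
      (G := K) (by
        rw [zpowers_eq_closure, zpowers_eq_closure, ← Subgroup.closure_union]
        refine isMulCommutative_closure ?_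
        rintro x (rfl | rfl) y (rfl | rfl)
        exacts [rfl, hwa, hwa.symm, rfl])
      (fun h => hw1 (by
        have := PGrp.le_of_card_dvd_of_isCyclic (P := zpowers w ⊔ zpowers a) le_sup_right
          le_sup_left (by rw [Nat.card_zpowers, Nat.card_zpowers, hoa, how]) (mem_zpowers a)
        obtain ⟨n, hn⟩ := this
        rw [hw, commutatorElement_eq_one_iff_commute, ← hn]
        exact hwy.symm.zpow_right n))
      (sup_le (zpowers_le.2 (hKn hwM' (Commute.refl w))) (zpowers_le.2 (hKn haM hwa)))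
      (hcop (PGrp.isPGroup_sup_of_le_normalizer hA hW hE |>.to_le (sup_comm _ _).le) hKM)
      fun h => hwM (Coprime.commutator_eq_bot_iff_le_centralizer'.1 h (mem_zpowers w))
    obtain ⟨c, ⟨hc, hce⟩, hc1⟩ := (Subgroup.bot_or_exists_ne_one _).resolve_left h
    replace hce : Commute c e := mem_centralizer_singleton_iff.1 hce
    obtain ⟨_, hi, _, hj, rfl⟩ := (Core.mem_sup_of_le_normalizer' hE).1 he
    obtain ⟨i, rfl⟩ := mem_powers_iff_mem_zpowers.2 hi
    obtain ⟨j, rfl⟩ := mem_powers_iff_mem_zpowers.2 hj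
    by_cases hj : p ∣ j
    · obtain ⟨j, rfl⟩ := hj
      simp only [pow_mul, hap, one_pow, mul_one, ← pow_mod_orderOf w i, how] at he1 hce
      exact (hc1 (hK0 c hc _ (Nat.pos_of_ne_zero fun e => he1 (by rw [e, pow_zero]))
        (Nat.mod_lt _ hp.out.pos) hce)).elim
    · obtain ⟨k, hk⟩ := exists_pow_eq_self_of_coprime (x := a)
        (hoa.symm ▸ (hp.out.coprime_iff_not_dvd.2 hj).symm)
      refine ⟨i * k, c, hc, hc1, ?_⟩
      have := hce.pow_right k
      rwa [(hwa.pow_pow i j).mul_pow, hk, ← pow_mul] at this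
  have h2 : ∀ i, K ⊓ centralizer {w ^ i * a} ≠ ⊥ := fun i => by
    obtain ⟨j, h⟩ := h1
    have key : ∀ t, ∃ c ∈ K, c ≠ 1 ∧ Commute c (w ^ (j + t) * a) := fun t => by
      induction t with
      | zero => exact h
      | succ t ih =>
        obtain ⟨c, hc, hc1, h⟩ := ih
        refine ⟨y * c * y⁻¹, Frob.conj_mem_of_mem_normalizer (hKn hy hwy) hc, by simpa, ?_⟩
        have := h.map (MulAut.conj y)
        rwa [MulAut.conj_apply, MulAut.conj_apply, ← mul_assoc, ← (hwy.pow_left _).eq,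
          mul_assoc (w ^ _), mul_assoc (w ^ _), mul_inv_eq_iff_eq_mul.1 hw.symm, ← mul_assoc,
          ← pow_succ] at this
    obtain ⟨c, hc, hc1, h⟩ := key ((p - 1) * j + i)
    rw [← add_assoc, add_comm j, ← add_one_mul, Nat.sub_add_cancel hp.out.one_le, pow_add, pow_mul,
      hwp, one_pow, one_mul] at h
    exact fun e => hc1 (mem_bot.1 (e ▸ mem_inf.2 ⟨hc, mem_centralizer_singleton_iff.2 h⟩))
  have h3 : ∀ i, 0 < i → i < p → K ⊓ centralizer {w ^ i * a} ≤ ⁅M, zpowers a⁆ ∧
      p ^ (m + 1) + 1 ≤ Nat.card ↥(K ⊓ centralizer {w ^ i * a}) := fun i hi1 hi2 => by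
    have hn : zpowers g ≤ normalizer ((K ⊓ centralizer {w ^ i * a} : Subgroup G) : Set G) := by
      refine Core.le_normalizer_inf (zpowers_le.2 (hKn hg hwg)) ?_
      rw [← centralizer_closure, ← zpowers_eq_closure]
      exact Core.le_normalizer_centralizer (zpowers_le.2 (hz
        ((hwg.pow_left i).mul_left (Commute.self_pow g _).symm)))
    have hf : ∀ c ∈ K ⊓ centralizer {w ^ i * a}, Commute c a → c = 1 := fun c hc h =>
      hK0 c hc.1 i hi1 hi2 (by
        simpa using Commute.mul_right (mem_centralizer_singleton_iff.1 hc.2) h.inv_right)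
    constructor
    · have h4 := zpowers_le.2 (hn (npow_mem_zpowers g (p ^ m)))
      rw [← Coprime.centralizer_sup_commutator h4 (hcop hA (inf_le_left.trans hKM))
        (Or.inl (Coprime.isSolvable_of_isPGroup hA))]
      refine sup_le (fun c hc => ?_) (commutator_mono (inf_le_left.trans hKM) le_rfl)
      rw [hf c hc.1 (hc.2 a (mem_zpowers a)).symm]
      exact one_mem _
    · have h4 := Frob.card_dvd_card_sub_one_of_fpf hn fun h hh h1 c hc e => by
        obtain ⟨n, hn⟩ := pow_mem_zpowers_of_ne_one hp.out ho hh h1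
        exact hf c hc (ha ▸ hn ▸ Commute.zpow_right e.symm n)
      have h5 := (one_lt_card_iff_ne_bot _).2 (h2 i)
      rw [Nat.card_zpowers, ho] at h4
      have := Nat.le_of_dvd (by omega) h4
      omega
  have hp3 : 2 < p := lt_of_le_of_ne hp.out.two_le hp2.symm
  obtain ⟨h4, h5⟩ := h3 1 one_pos hp.out.one_lt
  obtain ⟨h6, h7⟩ := h3 2 two_pos hp3
  refine le_trans ?_ (card_le_of_le (sup_le h4 h6))
  rw [Core.card_sup_of_disjoint, pow_two]
  · exact Nat.mul_le_mul h5 h7
  · exact ((inf_le_left.trans hKM).trans (le_centralizer_iff_isMulCommutative.2 hM)).trans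
      ((centralizer_le (SetLike.coe_subset_coe.2 (inf_le_left.trans hKM))).trans
        (centralizer_le_normalizer _))
  · refine eq_bot_iff.2 fun c hc => hK0 c hc.1.1 1 one_pos hp.out.one_lt ?_
    have := Commute.mul_right (mem_centralizer_singleton_iff.1 hc.2.2)
      (Commute.inv_right (mem_centralizer_singleton_iff.1 hc.1.2))
    rwa [show w ^ 2 * a * (w ^ 1 * a)⁻¹ = w ^ 1 by group] at this

/-- The element `a` is a `p`-element moving few elements of `M`. -/
def SmallOn (p : ℕ) (M X : Subgroup G) (a : G) : Prop :=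
  a ∈ centralizer (M : Set G) ∨ ∃ g ∈ X, ∃ m, a = g ^ p ^ m ∧ g ^ p ^ (m + 1) = 1 ∧
    Nat.card (⁅M, zpowers a⁆ : Subgroup G) < (p ^ (m + 1) + 1) ^ 2

theorem commutator_eq_bot_of_smallOn (hp2 : p ≠ 2) {M X : Subgroup G} (hM : IsMulCommutative M)
    (hpM : ¬ p ∣ Nat.card M) (hX : IsPGroup p X) (hXM : X ≤ normalizer (M : Set G))
    (hf : X ⊓ centralizer (M : Set G) = ⊥) {S : Set G} (hS : closure S ≤ X)
    (hn : X ≤ normalizer (closure S : Set G)) (h : ∀ a ∈ S, SmallOn p M X a) :
    ⁅closure S, closure S⁆ = ⊥ := by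
  by_contra hne
  rw [commutator_eq_bot_iff_le_centralizer] at hne
  obtain ⟨D, hD, ⟨hD1, hD2⟩, hmin⟩ := Core.exists_minimal_le (H := closure S)
    (P := fun D => X ≤ normalizer (D : Set G) ∧ ¬ D ≤ centralizer (closure S : Set G)) ⟨hn, hne⟩
  have h2 := PGrp.commutator_lt_of_le_normalizer hX (hX.to_le (hD.trans hS)) hD1
    fun e => hD2 (e ▸ bot_le)
  have h1 : ⁅D, X⁆ ≤ centralizer (closure S : Set G) := by
    by_contra h
    exact h2.ne (hmin _ ⟨normalizer_commutator_ge_right _ _, h⟩ h2.le)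
  refine hD2 fun y hy => ?_
  rw [centralizer_closure]
  intro a ha
  have haS := subset_closure ha
  have hw := commutator_mem_commutator hy (hS haS)
  have h0 : ∀ x ∈ X, x ∈ centralizer (M : Set G) → x = 1 := fun x h1 h2 =>
    mem_bot.1 (hf ▸ mem_inf.2 ⟨h1, h2⟩)
  rw [eq_comm, ← commutatorElement_eq_one_iff_mul_comm]
  by_contra hw1
  have ha1 : a ≠ 1 := fun e => hw1 (by rw [e, commutatorElement_one_right])
  obtain ⟨g, hg, m, rfl, hg1, hlt⟩ := (h a ha).resolve_left fun e => ha1 (h0 a (hS haS) e)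
  refine hlt.not_ge (sq_le_card_commutator hp2 hM hpM (orderOf_eq_prime_pow ha1 hg1) (hXM hg)
    (hXM (hS (hD hy))) rfl (h1 hw y (hD hy)).symm ?_ fun e => hw1 (h0 _ (hS (hD (h2.le hw))) e))
  have hu := Commute.inv_right (h1 (commutator_mem_commutator hy hg) _
    (mul_mem (hD (h2.le hw)) haS))
  have h3 : Commute (g ^ p ^ m) g := Commute.pow_self _ _
  rw [commutatorElement_def y (g ^ p ^ m), inv_mul_cancel_right] at hu
  have h4 := hu.mul_right (h3.map (MulAut.conj y))
  simp only [commutatorElement_def, inv_mul_cancel_right, MulAut.conj_apply, mul_inv_rev, inv_inv,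
    mul_assoc, inv_mul_cancel_left, mul_inv_cancel, mul_one] at h4
  simpa only [commutatorElement_def, mul_assoc] using h4.mul_left h3.inv_left

theorem commutator_le_centralizer_of_smallOn (hp2 : p ≠ 2) {M X : Subgroup G} [M.Normal]
    (hM : IsMulCommutative M) (hpM : ¬ p ∣ Nat.card M) (hX : IsPGroup p X) (htop : M ⊔ X = ⊤)
    {S : Set G} (hS : closure S ≤ X) (hn : X ≤ normalizer (closure S : Set G))
    (h : ∀ a ∈ S, SmallOn p M X a) : ⁅closure S, closure S⁆ ≤ centralizer (M : Set G) := by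
  haveI : (X ⊓ centralizer (M : Set G)).Normal := Core.normal_iff_top_le_normalizer.2 (htop ▸ sup_le
    ((le_centralizer_iff.1 inf_le_right).trans (centralizer_le_normalizer _))
    (Core.le_normalizer_inf le_normalizer le_normalizer_of_normal))
  let π := QuotientGroup.mk' (X ⊓ centralizer (M : Set G))
  refine le_trans ?_ (inf_le_right (a := X))
  rw [← Core.map_mk_eq_bot_iff, map_commutator, MonoidHom.map_closure]
  refine commutator_eq_bot_of_smallOn hp2 (map_isMulCommutative M π)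
    (fun e => hpM (e.trans (card_map_dvd _ _))) (hX.map π)
    ((map_mono le_normalizer_of_normal).trans (le_normalizer_map π)) ?_
    (by rw [← MonoidHom.map_closure]; exact map_mono hS)
    (by rw [← MonoidHom.map_closure]; exact (map_mono hn).trans (le_normalizer_map π)) ?_
  · rw [eq_bot_iff]
    rintro _ ⟨⟨x, hx, rfl⟩, hc⟩
    refine (QuotientGroup.eq_one_iff x).2 ⟨hx, fun v hv => ?_⟩
    rw [← commutatorElement_eq_one_iff_mul_comm, ← mem_bot, ← Core.inf_eq_bot_of_isPGroup_of_coprime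
      hX (hp.out.coprime_iff_not_dvd.2 hpM).symm]
    refine mem_inf.2 ⟨(mem_inf.1 ((QuotientGroup.eq_one_iff
      (N := X ⊓ centralizer (M : Set G)) _).1 ?_)).1,
      commutator_le_left M ⊤ (commutator_mem_commutator hv trivial)⟩
    exact (map_commutatorElement π v x).trans
      (commutatorElement_eq_one_iff_mul_comm.2 (hc _ (mem_map_of_mem π hv)))
  · rintro _ ⟨a, ha, rfl⟩
    rcases h a ha with h | ⟨g, hg, m, rfl, h1, h2⟩
    · left
      rintro _ ⟨v, hv, rfl⟩
      rw [← map_mul, h v hv, map_mul]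
    · refine Or.inr ⟨π g, mem_map_of_mem π hg, m, map_pow _ _ _, by rw [← map_pow, h1, map_one],
        lt_of_le_of_lt ?_ h2⟩
      rw [← MonoidHom.map_zpowers, ← map_commutator]
      exact Nat.le_of_dvd Nat.card_pos (card_map_dvd _ _)

end Groups

section Rep

variable {k V : Type*} [Field k] [AddCommGroup V] [Module k V] [IsAlgClosed k]
  [FiniteDimensional k V] {p : ℕ} [hp : Fact p.Prime]

omit [IsAlgClosed k] [FiniteDimensional k V] in
theorem IsFaithfulOn.aeval_apply {G G' : Type*} [Group G] [Group G'] {ρ : Representation k G V}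
    {c : Submodule k V} {L : Subgroup G} {π : L →* G'} {σ : Representation k G' c}
    (h : IsFaithfulOn ρ c π σ) (g : L) (f : k[X]) (w : c) :
    (aeval (σ (π g)) f w : V) = aeval (ρ g) f w := by
  induction f using Polynomial.induction_on' with
  | add p q hp hq => simp only [map_add, LinearMap.add_apply, Submodule.coe_add, hp, hq]
  | monomial n a =>
    simp only [aeval_monomial, Module.End.mul_apply, Module.algebraMap_end_apply, ← map_pow,
      Submodule.coe_smul, h.apply, Subgroup.coe_pow]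

theorem relIndex_commutator_lt {G : Type*} [Group G] [Finite G] {ρ : Representation k G V}
    (hρ : Function.Injective ρ) {t : ℕ} [ht : Fact t.Prime] {R : Subgroup G} (hR : IsPGroup t R)
    (hk : (t : k) ≠ 0) (hc : ⁅R, R⁆ ≤ centralizer (R : Set G))
    (hZ : R ⊓ centralizer (R : Set G) ≤ scal ρ ⊤) (hpt : p ≠ t) {x : G} {n : ℕ}
    (hx : x ∈ normalizer (R : Set G)) (ho : x ^ p ^ (n + 1) = 1) {f : k[X]} (hf : f ≠ 0)
    (hfx : aeval (ρ x) f = 0) (hdeg : f.natDegree < p ^ (n + 1)) :
    (centralizer (R : Set G)).relIndex ⁅R, zpowers (x ^ p ^ n)⁆ < (p ^ (n + 1) + 1) ^ 2 := by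
  by_cases hne : ⁅R, zpowers (x ^ p ^ n)⁆ ≤ centralizer (R : Set G)
  · rw [relIndex_eq_one.2 hne]
    exact Nat.one_lt_pow two_ne_zero (Nat.lt_succ_iff.2 (pow_pos hp.out.pos _))
  have ho : orderOf x = p ^ (n + 1) := orderOf_eq_prime_pow (fun e => hne (by
    rw [e, zpowers_one_eq_bot, commutator_bot_right]; exact bot_le)) ho
  replace hc := (le_inf (Coprime.commutator_le_of_le_normalizer le_normalizer) hc).trans hZ
  have hr := hp.out
  have hY : zpowers (x ^ p ^ n) ≤ normalizer (R : Set G) := zpowers_le.2 (pow_mem hx _)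
  have hle := Coprime.commutator_le_of_le_normalizer hY
  have hcop : (Nat.card (zpowers (x ^ p ^ n))).Coprime (Nat.card R) := by
    rw [Nat.card_zpowers, orderOf_pow_pow hr ho]; exact coprime_card_of_prime hr hpt hR
  have hsol := Coprime.isSolvable_of_isPGroup hR
  have hRk := card_ne_zero_of_isPGroup hR hk
  have hQ := hR.to_le hle
  have hQk := card_ne_zero_of_isPGroup hQ hk
  have hAQ := Core.le_normalizer_commutator (zpowers_le.2 hx)
    (zpowers_le_normalizer_zpowers_pow x (p ^ n))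
  have hnf : ¬ ⊤ ≤ fix ρ ⁅R, zpowers (x ^ p ^ n)⁆ := fun h => hne fun g hg => by
    rw [hρ ((fix_eq_top_iff.1 (top_le_iff.1 h) g hg).trans (map_one ρ).symm)]
    exact one_mem _
  obtain ⟨U₀, -, hU₀, h0⟩ := (isInv_top (ρ := ρ) _).exists_isIrr_not_le_fix hQk hnf
  obtain ⟨U, -, hU, i, -, -, -, -, hU2, -⟩ := hallHigman_core
    (Coprime.isSolvable_of_isPGroup hQ) hQk hr (coprime_card_of_prime hr hpt hQ)
    (hAQ (mem_zpowers x)) ho (Coprime.commutator_commutator_eq hY hcop (Or.inr hsol)) (by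
      rw [← commutator_eq_bot_iff_le_centralizer, ← le_bot_iff,
        ← commutator_inf_centralizer_commutator (R := R) (X := zpowers (x ^ p ^ n))
          ((hc.trans (scal_top_le_center hρ)).trans (center_le_centralizer _))]
      exact commutator_mono (inf_le_inf_right _ hle) le_rfl) hU₀.hcomp_mem_comps
    (fun h => h0 (le_hcomp.trans h)) hf (fun w _ => by rw [hfx]; rfl) hdeg
  rw [← hU.sq_finrank_eq_commutator hρ hsol hc hY hcop hRk]
  have := Nat.pow_le_pow_right hr.pos (Nat.sub_le (n + 1) i)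
  exact Nat.pow_lt_pow_left (by omega) two_ne_zero

variable {G : Type u} [Group G] [Finite G] {ρ : Representation k G V} [CharP k p]

/-- **Hall–Higman**: exceptional elements of maximal order have commuting socles. -/
theorem commute_pow_of_forall_exceptional (hp2 : p ≠ 2) (hρ : Function.Injective ρ)
    (hG : IsPSolvable p G) (h0 : pCore p G = ⊥) {P : Subgroup G} (hP : IsPGroup p P) {n : ℕ}
    (h : ∀ y ∈ P, (ρ y - 1) ^ (p ^ (n + 1) - 1) = 0) {x y : G} (hx : x ∈ P) (hy : y ∈ P) :
    Commute (x ^ p ^ n) (y ^ p ^ n) := by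
  have hpos := pow_pos hp.out.pos (n + 1)
  have h1 : ∀ y ∈ P, y ^ p ^ (n + 1) = 1 := fun y hy => hρ (by
    rw [map_one, ← sub_eq_zero, ← sub_one_pow_char_pow, ← Nat.sub_add_cancel hpos, pow_succ,
      h y hy, zero_mul])
  let S := (fun y => y ^ p ^ n) '' (P : Set G)
  have hS : closure S ≤ P := (closure_le _).2 (by rintro _ ⟨y, hy, rfl⟩; exact pow_mem hy _)
  have hn : P ≤ normalizer (closure S : Set G) := fun g hg =>
    Transfer.mem_normalizer_of_conj_mem fun s hs => ((closure_le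
      ((closure S).comap (MulAut.conj g).toMonoidHom)).2 (by
        rintro _ ⟨y, hy, rfl⟩
        exact subset_closure ⟨_, P.mul_mem (P.mul_mem hg hy) (P.inv_mem hg), conj_pow⟩)) hs
  suffices hs : ⁅closure S, closure S⁆ = ⊥ from commutatorElement_eq_one_iff_commute.1
    (mem_bot.1 (hs ▸ commutator_mem_commutator (subset_closure ⟨x, hx, rfl⟩)
      (subset_closure ⟨y, hy, rfl⟩)))
  by_contra hne
  have hSS := (Coprime.commutator_le_of_le_normalizer le_normalizer).trans hS
  obtain ⟨z, ⟨hz, hzP⟩, hz1⟩ := (Subgroup.bot_or_exists_ne_one _).resolve_left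
    (PGrp.inf_centralizer_ne_bot hP (hP.to_le hSS) (Core.le_normalizer_commutator hn hn) hne)
  obtain ⟨q, hq, hqp, R, hR, hPR, hR0, h2, h3, -⟩ :=
    exists_critical_of_central hG h0 hP (hSS hz) hzP hz1
  haveI := Fact.mk hq
  have hk := natCast_ne_zero_of_ne k hq hqp
  have hRk := card_ne_zero_of_isPGroup hR hk
  obtain ⟨c, hc, hcR⟩ := exists_comp_not_le_fix hRk hρ hR0
  have key : ∀ y ∈ P, ∃ g ∈ P ⊓ stab ρ c, ∃ m, y ^ p ^ n = g ^ p ^ m ∧ g ^ p ^ (m + 1) = 1 ∧
      ∃ f : k[X], f ≠ 0 ∧ f.natDegree < p ^ (m + 1) ∧ ∀ w ∈ c, aeval (ρ g) f w = 0 := by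
    intro y hy
    obtain ⟨t, ht0, ht⟩ := exists_period (stab ρ c) y
    obtain ⟨i, hi, rfl⟩ := (Nat.dvd_prime_pow hp.out).1
      ((ht (p ^ (n + 1))).1 (by rw [h1 y hy]; exact one_mem _))
    have hst := (ht _).2 dvd_rfl
    obtain ⟨g, hg0, hg1, hg2⟩ := exists_aeval_pow_eq_zero ht0 hst
      (iSupIndep_of_le_comps hRk (fun i => map_rho_mem_comps hc (pow_mem (hPR hy) _))
        (map_pow_injective fun m => (ht m).1) fun _ => le_rfl) (geom_ne_zero hpos.ne') subset_rfl
      fun w _ => by rw [aeval_geom_eq_pow, h y hy]; rfl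
    have hg3 : 0 < g.natDegree := by
      by_contra h
      obtain ⟨a, rfl⟩ := natDegree_eq_zero.1 (Nat.eq_zero_of_not_pos h)
      obtain ⟨w, hw, hw0⟩ := (Submodule.ne_bot_iff c).1 (ne_bot_of_mem_comps hc)
      have := hg2 w hw
      rw [aeval_C, Module.algebraMap_end_apply, smul_eq_zero] at this
      exact hw0 (this.resolve_left fun h => hg0 (by rw [h, map_zero]))
    replace hg1 := (hg1.trans (natDegree_geom_le _)).trans_lt (Nat.sub_one_lt hpos.ne')
    obtain ⟨m, rfl⟩ := Nat.exists_eq_add_of_le (Nat.le_of_lt_succ ((Nat.pow_lt_pow_iff_right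
      hp.out.one_lt).1 ((Nat.le_mul_of_pos_right _ hg3).trans_lt hg1)))
    refine ⟨y ^ p ^ i, ⟨pow_mem hy _, hst⟩, m, by rw [← pow_mul, pow_add],
      by rw [← pow_mul, ← pow_add, ← add_assoc, h1 y hy], g, hg0, ?_, hg2⟩
    rw [add_assoc, pow_add] at hg1
    exact Nat.lt_of_mul_lt_mul_left hg1
  set X := P ⊓ stab ρ c
  have hSX : closure S ≤ X := (closure_le _).2 (by
    rintro _ ⟨y, hy, rfl⟩
    obtain ⟨g, hg, m, e, -⟩ := key y hy
    exact Set.mem_of_eq_of_mem e (pow_mem hg _))
  have hRL : R ≤ R ⊔ X := le_sup_left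
  have hXL : X ≤ R ⊔ X := le_sup_right
  have hSL := hSX.trans hXL
  have hXR : X ≤ normalizer (R : Set G) := inf_le_left.trans hPR
  obtain ⟨G', _, _, π, σ, hσ⟩ := exists_isFaithfulOn (L := R ⊔ X)
    ((isInv_of_mem_comps hc).sup_left (isInv_iff_le_stab.2 inf_le_right))
  haveI := normal_im π hσ.surj (sup_le le_normalizer hXR)
  have h4 : ⁅im π R, im π R⁆ ≤ centralizer (im π R : Set G') := by
    rw [← im_commutator π hRL hRL]
    rintro _ ⟨g, hg, rfl⟩
    exact mem_centralizer_im π (h3 hg)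
  have hZ : im π R ⊓ centralizer (im π R : Set G') ≤ scal σ ⊤ := by
    rintro _ ⟨⟨g, hg, rfl⟩, hg'⟩
    obtain ⟨U, hU, hcU⟩ := id hc
    have hUc : U ≤ c := hcU ▸ le_hcomp
    refine hσ.mem_scal_iff.2 (exists_smul_on_comp hRk hc hU hUc hg fun a ha w hw => ?_)
    refine (hσ.eq_one_iff (g := ⁅(⟨a, hRL ha⟩ : ↥(R ⊔ X)), g⁆)).1 ?_ w (hUc hw)
    rw [map_commutatorElement, commutatorElement_eq_one_iff_mul_comm]
    exact hg' _ (mem_im π ha)
  set Z := im π R ⊓ centralizer (im π R : Set G')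
  let τ := QuotientGroup.mk' Z
  have hτ := QuotientGroup.mk'_surjective Z
  haveI : ((im π R).map τ).Normal := Normal.map inferInstance _ hτ
  have hcl : closure (τ '' (π '' (Subtype.val ⁻¹' S))) = (im π (closure S)).map τ := by
    rw [← MonoidHom.map_closure, ← MonoidHom.map_closure]
    congr 2
    refine map_injective (R ⊔ X).subtype_injective ?_
    rw [MonoidHom.map_closure, map_subgroupOf_eq_of_le hSL]
    exact congrArg _ (Set.image_preimage_eq_of_subset fun s hs => ⟨⟨s, hSL (subset_closure hs)⟩, rfl⟩)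
  have h5 := commutator_le_centralizer_of_smallOn hp2 (M := (im π R).map τ)
    (X := (im π X).map τ) (S := τ '' (π '' (Subtype.val ⁻¹' S))) (by
      rw [← le_centralizer_iff_isMulCommutative, ← commutator_eq_bot_iff_le_centralizer,
        ← map_commutator, Core.map_mk_eq_bot_iff]
      exact le_inf (commutator_le_left _ _) h4)
    (hp.out.coprime_iff_not_dvd.1 (coprime_card_of_prime hp.out hqp.symm
      ((isPGroup_im π hR).map τ))) ((isPGroup_im π (hP.to_le inf_le_left)).map τ)
    (by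
      rw [← Subgroup.map_sup, ← im_sup π hRL hXL]
      unfold im
      rw [subgroupOf_self, map_top_of_surjective _ hσ.surj, map_top_of_surjective _ hτ])
    (hcl ▸ map_mono (im_mono π hSX))
    (hcl ▸ (map_mono (im_le_normalizer π (inf_le_left.trans hn))).trans (le_normalizer_map τ)) (by
      rintro _ ⟨_, ⟨a, ⟨y, hy, ha⟩, rfl⟩, rfl⟩
      obtain ⟨g, hg, m, e, hg1, f, hf, hf1, hf2⟩ := key y hy
      have ha : a = ⟨g, hXL hg⟩ ^ p ^ m := Subtype.ext (ha.symm.trans e)
      have hg2 : π ⟨g, hXL hg⟩ ^ p ^ (m + 1) = 1 := by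
        rw [← map_pow, ← map_one π]
        exact congrArg π (Subtype.ext hg1)
      refine Or.inr ⟨τ (π ⟨g, hXL hg⟩), mem_map_of_mem τ (mem_im π hg), m,
        by rw [ha, map_pow, map_pow], by rw [← map_pow, hg2, map_one], ?_⟩
      rw [← MonoidHom.map_zpowers, ← map_commutator, Core.card_map_mk_eq_relIndex,
        ← inf_relIndex_right Z, inf_right_comm, inf_eq_right.2 (commutator_le_left _ _), inf_comm,
        inf_relIndex_right, ha, map_pow]
      refine relIndex_commutator_lt hσ.inj (isPGroup_im π hR) hk h4 hZ hqp.symm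
        (mem_normalizer_im π (hXR hg)) hg2 hf ?_ hf1
      ext w
      rw [hσ.aeval_apply, hf2 w w.2]
      rfl)
  have hzL := hSL (Coprime.commutator_le_of_le_normalizer le_normalizer hz)
  have h7 : im π R = ⁅im π R, im π (zpowers z)⁆ := by
    rw [← im_commutator π hRL (zpowers_le.2 hzL), h2]
  have h6 : im π R ≤ Z := by
    rw [hcl, ← map_commutator, ← im_commutator π hSL hSL] at h5
    rw [h7, ← Core.map_mk_eq_bot_iff, map_commutator, Coprime.commutator_eq_bot_iff_le_centralizer']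
    exact (map_mono (im_mono π (zpowers_le.2 hz))).trans h5
  refine hcR (le_kerOn_iff.1 ((hσ.im_eq_bot_iff hRL).1 ?_))
  refine h7.trans (commutator_eq_bot_iff_le_centralizer.2 ?_)
  exact ((h6.trans hZ).trans (scal_top_le_center hσ.inj)).trans (center_le_centralizer _)

end Rep

end Cfsg.Agent.Mod
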