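import Mathlib
import Cfsg.Agent.Lib.Mod.Shult

/-! Fixed-point-free automorphisms of order four. -/

namespace Cfsg.Agent.Mod

open Module Subgroup
open scoped commutatorElement

universe u

theorem commutator_eq_bot_of_fpf_of_sq {Γ : Type*} [Group Γ] [Finite Γ] {G : Subgroup Γ} {x : Γ}
    (hx : x ∈ normalizer (G : Set Γ)) (hf : G ⊓ centralizer (zpowers x : Set Γ) = ⊥)
    (h2 : x ^ 2 ∈ centralizer (G : Set Γ)) : ⁅G, G⁆ = ⊥ := by
  let φ := Coprime.conjHom (zpowers_le.2 hx) ⟨x, mem_zpowers x⟩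
  have hφ : ∀ g : G, (φ g : Γ) = x * g * x⁻¹ := fun g => rfl
  have h1 : MonoidHom.FixedPointFree φ := fun g hg => by
    apply Subtype.ext
    rw [Subgroup.coe_one, ← mem_bot, ← hf]
    refine ⟨g.2, ?_⟩
    rw [zpowers_eq_closure, centralizer_closure]
    have := congrArg Subtype.val hg
    rw [hφ, mul_inv_eq_iff_eq_mul] at this
    exact mem_centralizer_singleton_iff.2 this.symm
  have h3 : Function.Involutive φ := fun g => Subtype.ext (by
    rw [hφ, hφ]
    have := mem_centralizer_iff.1 h2 g g.2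
    calc x * (x * g * x⁻¹) * x⁻¹ = x ^ 2 * g * (x ^ 2)⁻¹ := by rw [sq]; group
      _ = g := by rw [← this]; group)
  rw [eq_bot_iff, commutator_le]
  intro a ha b hb
  rw [mem_bot, commutatorElement_eq_one_iff_mul_comm]
  exact congrArg Subtype.val (h1.commute_all_of_involutive h3 ⟨a, ha⟩ ⟨b, hb⟩).eq

variable {Γ : Type u} [Group Γ] [Finite Γ] {G : Subgroup Γ}

theorem Fpf.pow_mem_centralizer {k W : Type*} [Field k] [AddCommGroup W] [Module k W]
    [IsAlgClosed k] [FiniteDimensional k W] {ρ : Representation k Γ W}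
    (hρ : Function.Injective ρ) {p : ℕ} [Fact p.Prime] [CharP k p] (hc : pCore p Γ = ⊥) {x : Γ}
    (h : Fpf G (zpowers x)) (h0 : fix ρ (zpowers x) = ⊥) {r n : ℕ} (hr : r.Prime)
    (hrn : r ≠ 2 ∨ n ≤ 1) (hx : x ^ r ^ (n + 1) = 1) :
    x ^ r ^ n ∈ centralizer (G : Set Γ) := by
  haveI := h.normal
  by_cases h1 : x ^ r ^ n = 1
  · rw [h1]; exact one_mem _
  haveI := Fact.mk hr
  have ho : orderOf x = r ^ (n + 1) := orderOf_eq_prime_pow h1 hx
  refine zpowers_le.1 (le_centralizer_of_forall_pCore h.sol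
    (Coprime.coprime_mono h.cop (zpowers_le.2 (npow_mem_zpowers _ _)) le_rfl) fun q hq => ?_)
  have hQ : IsPGroup q ↥(pCore q Γ ⊓ G) := (Core.isPGroup_pCore q).to_inf_left
  by_cases hqp : q = p
  · rw [hqp, hc, bot_inf_eq]; exact bot_le
  by_cases hqr : r = q
  · rw [eq_bot_of_isPGroup_of_not_dvd hQ inf_le_right]
    · exact bot_le
    · rw [← hqr, ← hr.coprime_iff_not_dvd]
      refine h.cop.coprime_dvd_left ?_
      rw [Nat.card_zpowers, ho]
      exact dvd_pow_self r n.succ_ne_zero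
  refine shult_module hρ hQ (natCast_ne_zero_of_ne _ hq.out hqp) hr hqr hrn
    (le_normalizer_of_normal (mem_top _)) ho ?_ h0
  rw [← le_bot_iff, ← h.fpf]
  exact inf_le_inf_right _ inf_le_right

theorem Fpf.isNilpotent_commutator_of_pow_four {x : Γ} (h : Fpf G (zpowers x))
    (hx : x ^ 2 ^ 2 = 1) : Group.IsNilpotent (⁅G, G⁆ : Subgroup Γ) := by
  haveI := h.normal
  refine h.isNilpotent_of_forall_rep (commutator_le_left _ _)
    fun p _ Γ' _ _ π hπ W _ _ _ ρ hρ hc _ h0 => ?_
  have h' := h.map hπ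
  haveI := h'.normal
  rw [MonoidHom.map_zpowers] at h' h0
  rw [map_commutator]
  refine commutator_eq_bot_of_fpf_of_sq (le_normalizer_of_normal (mem_top _)) h'.fpf ?_
  exact h'.pow_mem_centralizer hρ hc h0 Nat.prime_two (n := 1) (Or.inr le_rfl)
    (by rw [← map_pow, hx, map_one])

theorem isNilpotent_commutator_of_map {G Γ : Type*} [Group G] [Group Γ] {f : G →* Γ}
    (hf : Function.Injective f)
    (h : Group.IsNilpotent (⁅(⊤ : Subgroup G).map f, (⊤ : Subgroup G).map f⁆ : Subgroup Γ)) :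
    Group.IsNilpotent (commutator G) := by
  rw [← map_commutator] at h
  exact nilpotent_of_mulEquiv (_h := h) (Subgroup.equivMapOfInjective _ f hf).symm

end Cfsg.Agent.Mod
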