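import Mathlib
import Cfsg.Agent.Lib.Mod.TwoPrimes
import Cfsg.Agent.Lib.Mod.OrderFour

/-! Gross's theorem on fixed-point-free automorphisms of order a power of two. -/

namespace Cfsg.Agent.Mod

open Module Polynomial Subgroup
open scoped commutatorElement

universe u

variable {k V : Type*} [Field k] [AddCommGroup V] [Module k V] [IsAlgClosed k]
  [FiniteDimensional k V]

/-- In the critical case without fixed vectors, `x` commutes with all `Q`-endomorphisms. -/
theorem commute_of_critical {G : Type*} [Group G] [Finite G] {ρ : Representation k G V}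
    {Q : Subgroup G} {x : G} (hx : x ∈ normalizer (Q : Set G))
    (hk : (Nat.card ↥(Q ⊔ zpowers x) : k) ≠ 0) (htop : ⊤ ∈ comps ρ Q)
    (h0 : fix ρ (zpowers x) = ⊥) (h1 : 1 < orderOf x)
    (hcrit : ∀ U, IsIrr ρ Q U → x ∈ stab ρ U → ∀ g : k[X], g ≠ 0 → g.natDegree + 1 < orderOf x →
      ¬ ∀ w ∈ U, aeval (ρ x) g w = 0) {φ : End k V} (hφ : φ ∈ endQ ρ Q) :
    ρ x * φ = φ * ρ x := by
  have hinv : IsInv (conjRep ρ) (zpowers x) (Subalgebra.toSubmodule (endQ ρ Q)) :=
    fun g hg ψ hψ => conj_mem_endQ hψ (zpowers_le.2 hx hg)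
  have hQk := card_ne_zero_of_le hk le_sup_left
  have key := hinv.le_of_forall_isIrr (X := fix (conjRep ρ) (zpowers x))
    (card_ne_zero_of_le hk le_sup_right) fun M hM hirr => by
      obtain ⟨μ, hμ⟩ := mem_scal.1 (hirr.mem_scal_of_commute (g := x)
        (isInv_iff_le_stab.1 hirr.inv (mem_zpowers x)) (by
          rw [zpowers_eq_closure, centralizer_closure]
          exact mem_centralizer_singleton_iff.2 rfl))
      intro ψ hψ
      rw [mem_fix_zpowers, hμ ψ hψ]
      by_contra hne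
      have hμ1 : μ ≠ 1 := fun e => hne (by rw [e, one_smul])
      have hψ0 : ¬ ⊤ ≤ LinearMap.ker ψ := fun e => hne (by
        rw [LinearMap.ker_eq_top.1 (top_le_iff.1 e), smul_zero])
      refine hψ0 ((isInv_top (ρ := ρ) _).le_of_forall_isIrr hk fun X _ hX => ?_)
      obtain ⟨U, hUX, hU, hxU⟩ := exists_isIrr_stab_le hQk htop (hX.inv.mono le_sup_left) le_top
        hX.ne_bot hx (isInv_iff_le_stab.1 hX.inv (mem_sup_right (mem_zpowers x)))
      rw [← (hX.eq_bot_or_eq U hUX
        (hU.inv.sup_left (isInv_iff_le_stab.2 (zpowers_le.2 hxU)))).resolve_left hU.ne_bot]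
      rcases hU.injOn_or_map_eq_bot (hM hψ) with hinj | h
      swap
      · exact LinearMap.le_ker_iff_map.2 h
      exfalso
      obtain ⟨N, hN⟩ : ∃ N, orderOf x = N + 2 := ⟨orderOf x - 2, by omega⟩
      have hgeom := aeval_geom_eq_zero (ρ := ρ) (x := x) (n := N + 2)
        (by rw [← hN, pow_orderOf_eq_one, map_one]) h0
      simp only [map_sum, map_pow, aeval_X] at hgeom
      have h2 : ρ x * ψ = μ • (ψ * ρ x) := by
        rw [← smul_mul_assoc, ← hμ ψ hψ, conjRep_apply, mul_assoc, rho_inv_mul, mul_one]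
      have h3 : ∀ i : ℕ, ρ x ^ i * ψ = μ ^ i • (ψ * ρ x ^ i) := fun i => by
        induction i with
        | zero => simp
        | succ i ih =>
          rw [pow_succ, mul_assoc, h2, mul_smul_comm, ← mul_assoc, ih, smul_mul_assoc, smul_smul,
            mul_assoc, pow_succ' μ]
      refine hcrit U hU hxU (∑ i ∈ Finset.range (N + 1), monomial i (μ ^ (i + 1) - 1))
        (fun e => hμ1 ?_) ?_ fun w hw => ?_
      · have := congrArg (fun f => f.coeff 0) e
        simp only [finsetSum_coeff, coeff_monomial, coeff_zero] at this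
        rw [Finset.sum_eq_single 0 (fun i _ hi => if_neg hi) (by simp), if_pos rfl] at this
        simpa [sub_eq_zero] using this
      · rw [hN]
        refine Nat.succ_lt_succ (Nat.lt_succ_of_le (natDegree_sum_le_of_forall_le _ _
          fun i hi => (natDegree_monomial_le _).trans ?_))
        exact Nat.le_of_lt_succ (Finset.mem_range.1 hi)
      · have h4 : ∑ i ∈ Finset.range (N + 2), μ ^ i • (ρ x ^ i) w = 0 := by
          refine hinj _ (Submodule.sum_mem _ fun i _ => Submodule.smul_mem _ _ ?_) ?_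
          · rw [← map_pow]; exact isInv_stab U _ (pow_mem hxU i) w hw
          · have := congrArg (fun φ => (φ * ψ) w) hgeom
            simp only [Finset.sum_mul, h3, LinearMap.sum_apply, LinearMap.smul_apply,
              Module.End.mul_apply, zero_mul, LinearMap.zero_apply] at this
            simpa only [map_sum, map_smul] using this
        have h5 := congrArg (fun φ => φ w) hgeom
        simp only [LinearMap.sum_apply, LinearMap.zero_apply] at h5
        have h6 : ∑ i ∈ Finset.range (N + 2), (μ ^ i - 1) • (ρ x ^ i) w = 0 := by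
          simp only [sub_smul, one_smul, Finset.sum_sub_distrib, h4, h5, sub_zero]
        rw [Finset.sum_range_succ', pow_zero, sub_self, zero_smul, add_zero] at h6
        apply rho_injective ρ x
        rw [map_zero, ← h6]
        simp only [map_sum, aeval_monomial, LinearMap.sum_apply, Module.End.mul_apply,
          Module.algebraMap_end_apply, map_smul, pow_succ']
  have := mem_fix_zpowers.1 (key hφ)
  rw [conjRep_apply] at this
  conv_rhs => rw [← this, mul_assoc, rho_inv_mul, mul_one]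

theorem le_of_commutator_le_of_commutator_eq {G : Type*} [Group G] {R P Y N : Subgroup G}
    (hR : R ≤ normalizer (N : Set G)) (hP : P ≤ normalizer (N : Set G))
    (hY : Y ≤ normalizer (N : Set G)) (hRP : ⁅R, P⁆ = R) (hPY : ⁅P, Y⁆ = P) (h : ⁅R, Y⁆ ≤ N) :
    R ≤ N := by
  refine hRP.ge.trans ?_
  rw [← hPY, commutator_comm]
  refine Reg.three_subgroups hP hY hR ?_ (hRP.symm ▸ h)
  rw [commutator_comm Y]
  exact (commutator_mono h le_rfl).trans (Coprime.commutator_le_of_le_normalizer hP)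

theorem le_centralizer_of_two_pow {G : Type u} [Group G] [Finite G]
    {ρ : Representation k G V} (hρ : Function.Injective ρ) {t : ℕ} [ht : Fact t.Prime]
    {R : Subgroup G} [R.Normal] (hR : IsPGroup t R) (hk : (t : k) ≠ 0) (hc : ⁅R, R⁆ ≤ scal ρ ⊤)
    (hexp : ∀ g ∈ R, g ^ t ∈ centralizer (R : Set G)) {s : ℕ} [hs : Fact s.Prime]
    {P : Subgroup G} (hP : IsPGroup s P) (hst : s ≠ t) (hRP : ⁅R, P⁆ = R) (ht2 : 2 ≠ t)
    (hs2 : 2 ≠ s) (hk2 : ((2 : ℕ) : k) ≠ 0) {x : G} {n : ℕ} (hx : x ∈ normalizer (P : Set G))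
    (ho : orderOf x = 2 ^ (n + 1)) (hPY : ⁅P, zpowers (x ^ 2 ^ n)⁆ = P)
    (h0 : fix ρ (zpowers x) = ⊥) : R ≤ centralizer (R : Set G) := by
  by_cases hne : ⁅R, zpowers (x ^ 2 ^ n)⁆ ≤ centralizer (R : Set G)
  · exact le_of_commutator_le_of_commutator_eq le_normalizer_of_normal le_normalizer_of_normal
      le_normalizer_of_normal hRP hPY hne
  exfalso
  have hxR : x ∈ normalizer (R : Set G) := le_normalizer_of_normal (mem_top x)
  obtain ⟨htop, d, hd0, hd1, hd2, hd3⟩ := critical_setup hρ hR hk hc Nat.prime_two ht2 hxR ho h0 hne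
  have hfpf := fun z a => mem_centralizer_of_commutator_mem hρ hR hc Nat.prime_two ht2 hxR ho
    (z := z) (a := a)
  have hsol := Coprime.isSolvable_of_isPGroup hR
  have hRk := card_ne_zero_of_isPGroup hR hk
  have hcen := hc.trans (scal_top_le_center hρ)
  have hcop : (Nat.card (zpowers (x ^ 2 ^ n))).Coprime (Nat.card R) := by
    rw [Nat.card_zpowers, orderOf_pow_pow Nat.prime_two ho]
    exact coprime_card_of_prime Nat.prime_two ht2 hR
  have hxQ := Core.le_normalizer_commutator (zpowers_le.2 hxR)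
    (zpowers_le_normalizer_zpowers_pow x (2 ^ n))
  set Q := ⁅R, zpowers (x ^ 2 ^ n)⁆ with hQ
  set Y := R ⊓ centralizer (R : Set G)
  have hQR : Q ≤ R := commutator_le_left _ _
  have hQk := card_ne_zero_of_le hRk hQR
  have hRY : ⁅R, R⁆ ≤ Y := le_inf (commutator_le_left _ _) (hcen.trans (center_le_centralizer _))
  have ht3 : 3 ≤ t := by have := ht.out.two_le; omega
  have htd : 3 ^ d ≤ t ^ d := Nat.pow_le_pow_left ht3 d
  have h3d : 2 * d < 3 ^ d := by
    clear * -
    induction d with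
    | zero => simp
    | succ d ih => have : 0 < 3 ^ d := by positivity
                   rw [pow_succ]; omega
  have hE : R ⊓ centralizer (zpowers (x ^ 2 ^ n) : Set G) ≤ centralizer (zpowers x : Set G) := by
    intro e he
    rw [zpowers_eq_closure, centralizer_closure, mem_centralizer_singleton_iff, eq_comm]
    apply hρ
    rw [map_mul, map_mul]
    refine commute_of_critical (hxQ (mem_zpowers x)) ?_ htop h0
      (ho ▸ Nat.one_lt_two_pow n.succ_ne_zero) (fun U hU hxU g hg0 hg1 hg2 => ?_)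
      (rho_mem_endQ fun g hg => ?_)
    · rw [sup_comm]
      refine ne_zero_of_dvd_ne_zero ?_ (Nat.cast_dvd_cast (Core.card_sup_dvd_of_le_normalizer hxQ))
      rw [Nat.cast_mul, Nat.card_zpowers, ho, Nat.cast_pow]
      exact mul_ne_zero (pow_ne_zero _ hk2) hQk
    · have hsc := hU.commutator_inf_scal hρ hsol hc le_normalizer_of_normal hcop
      rcases critical_on (Core.isSolvable_of_le hsol hQR) hQk hU (hxQ (mem_zpowers x)) hxU
        (fun z hz hz1 a ha h => by
          have haz : ⁅a, z⁆ ∈ Q := Coprime.commutator_le_of_le_normalizer hxQ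
            (commutator_mem_commutator ha hz)
          exact (hsc.ge ⟨ha, hfpf z a hz hz1 ha (hsc.le ⟨haz, h⟩).2⟩).2) hg0 hg2 (by omega)
        with h | h
      · rw [hd3 U hU] at h; omega
      · omega
    · have := commutator_eq_bot_iff_le_centralizer.1 (commutator_inf_centralizer_commutator
        (R := R) (hcen.trans (center_le_centralizer (zpowers (x ^ 2 ^ n) : Set G)))) he
      rw [this g hg]
  have hRx : ⁅R, zpowers x⁆ = Q := by
    refine le_antisymm ?_ (commutator_mono le_rfl (zpowers_le.2 (npow_mem_zpowers x _)))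
    refine (commutator_mono (Coprime.centralizer_sup_commutator le_normalizer_of_normal hcop
      (Or.inr hsol)).ge le_rfl).trans (Reg.commutator_sup_left_le
        (inf_le_left.trans (normalizer_commutator_ge_left _ _)) le_normalizer ?_
        (Coprime.commutator_le_of_le_normalizer hxQ))
    rw [commutator_eq_bot_iff_le_centralizer.2 hE]
    exact bot_le
  obtain ⟨W, _, _, _, σ, h1, h2⟩ := exists_rep_section (AlgebraicClosure (ZMod t)) hRY
    fun g hg => ⟨pow_mem hg _, hexp g hg⟩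
  have hidx : ∀ H : Subgroup G, Y.relIndex ⁅R, H⁆ = (centralizer (R : Set G)).relIndex ⁅R, H⁆ :=
    fun H => by
      rw [← inf_relIndex_right, ← inf_relIndex_right (centralizer _), inf_right_comm,
        inf_of_le_right (commutator_le_left _ _), inf_comm]
  have hdB : finrank (AlgebraicClosure (ZMod t)) (cmt σ (zpowers x)) = 2 * d := by
    have := h1 (zpowers x) (by
      rw [Nat.card_zpowers, ho]
      exact fun h => ht2 ((Nat.prime_dvd_prime_iff_eq ht.out Nat.prime_two).1
        (ht.out.dvd_of_dvd_pow h)).symm)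
    rw [hidx, hRx, hd2] at this
    exact Nat.pow_right_injective ht.out.two_le this
  have hPt : ¬ t ∣ Nat.card P :=
    ht.out.coprime_iff_not_dvd.1 (coprime_card_of_prime ht.out hst.symm hP)
  obtain ⟨i, hi, e, he0, he1, he2⟩ := hallHigman_cmt (ρ := σ) hP
    (natCast_ne_zero_of_ne _ hs.out hst) Nat.prime_two hs2 hx ho (isInv_top _)
    (isInv_iff_le_stab.1 (isInv_top ⊤) (mem_top _)) (by
      rw [hPY, le_kerOn_iff, top_le_iff]
      intro h
      have h3 := h1 P hPt
      have h4 := (isCompl_fix_cmt (ρ := σ) (natCast_ne_zero_of_not_dvd _ hPt)).inf_eq_bot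
      rw [h, top_inf_eq] at h4
      rw [h4, finrank_bot, pow_zero, hidx, hRP, eq_comm,
        relIndex_eq_one] at h3
      exact hne (hQR.trans h3)) (by rw [top_inf_eq, hdB]; omega)
  rw [top_inf_eq, hdB] at he2
  have hs3 : 3 ≤ s ^ e := le_trans (by have := hs.out.two_le; omega) (Nat.le_self_pow he0.ne' s)
  obtain ⟨j, hj⟩ : ∃ j, n + 1 - i = j + 2 := by
    refine ⟨n + 1 - i - 2, ?_⟩
    by_contra h
    rw [show n + 1 - i = 1 by omega] at he1
    omega
  have e1 : 2 ^ (n + 1) = 2 ^ i * (2 ^ j * 4) := by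
    rw [show n + 1 = i + (j + 2) by omega, pow_add, pow_add]; rfl
  have h2j : 0 < 2 ^ j := by positivity
  have h2i : 0 < 2 ^ i := by positivity
  have e2 : 3 * t ^ d ≤ 8 * d + 1 := by nlinarith
  have hd : d = 1 := by
    by_contra h
    obtain ⟨d, rfl⟩ : ∃ u, d = u + 2 := ⟨d - 2, by omega⟩
    have : 8 * (d + 2) + 1 < 3 * 3 ^ (d + 2) := by
      clear * -
      induction d with
      | zero => norm_num
      | succ d ih => rw [show d + 1 + 2 = d + 2 + 1 by ring, pow_succ]; omega
    omega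
  subst hd
  rw [pow_one] at hd1 e2
  obtain rfl : t = 3 := by omega
  rw [hj, pow_add] at he1
  have e3 : 2 ^ j = 1 := by nlinarith
  rw [e3] at he1
  exact hst ((Nat.prime_dvd_prime_iff_eq hs.out Nat.prime_three).1
    ((show s ^ e = 3 by omega) ▸ dvd_pow_self s he0.ne'))

theorem le_centralizer_commutator_two_pow {G : Type u} [Group G] [Finite G]
    {ρ : Representation k G V} (hρ : Function.Injective ρ) {t : ℕ} [ht : Fact t.Prime]
    {O : Subgroup G} (hO : IsPGroup t O) (hk : (t : k) ≠ 0) {s : ℕ} [hs : Fact s.Prime]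
    {P : Subgroup G} (hP : IsPGroup s P) (hst : s ≠ t) (hPO : P ≤ normalizer (O : Set G))
    (ht2 : 2 ≠ t) (hs2 : 2 ≠ s) (hk2 : ((2 : ℕ) : k) ≠ 0) {x : G} {n : ℕ}
    (hxO : x ∈ normalizer (O : Set G)) (hx : x ∈ normalizer (P : Set G))
    (ho : orderOf x = 2 ^ (n + 1)) (hPY : ⁅P, zpowers (x ^ 2 ^ n)⁆ = P)
    (h0 : fix ρ (zpowers x) = ⊥) : P ≤ centralizer (O : Set G) := by
  by_contra hne
  rw [← Coprime.commutator_eq_bot_iff_le_centralizer'] at hne
  obtain ⟨R, hRO, hLR, hR0, hRP, hR2, hR3, hmin⟩ := exists_minimal_noncentralized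
    (A := P ⊔ zpowers x) (Coprime.isSolvable_of_isPGroup hO) (sup_le hPO (zpowers_le.2 hxO))
    le_sup_left (sup_le le_normalizer (zpowers_le.2 hx)) (coprime_card_of_isPGroup hst hP hO) hne
  have hR := hO.to_le hRO
  have hRk := card_ne_zero_of_isPGroup hR hk
  have hPR := le_sup_left.trans hLR
  have hAR := le_sup_right.trans hLR
  have hxR := hAR (mem_zpowers x)
  have hRR : ⁅R, R⁆ ≤ R := Coprime.commutator_le_of_le_normalizer le_normalizer
  have hexp : ∀ g ∈ R, g ^ t ∈ centralizer (P : Set G) := fun g hg =>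
    hmin _ (PGrp.map_frattini_subtype_lt hR0)
      (hLR.trans (Core.normalizer_le_normalizer_map_of_characteristic R _))
      (PGrp.pow_mem_map_frattini hR hg)
  have hZ := center_le_centralizer_pow hρ hR hk Nat.prime_two ht2 hxR ho h0
  have hcomm : ¬ R ≤ centralizer (R : Set G) := fun h => hR0 (le_bot_iff.1
    (le_of_commutator_le_of_commutator_eq le_normalizer_of_normal le_normalizer_of_normal
      le_normalizer_of_normal hRP hPY
      (commutator_eq_bot_iff_le_centralizer.2 ((le_inf le_rfl h).trans hZ)).le))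
  set Y := R ⊓ centralizer (R : Set G)
  have hLY := Core.le_normalizer_inf hLR (Core.le_normalizer_centralizer hLR)
  have hAY := le_sup_right.trans hLY
  have hYP : Y ≤ centralizer (P : Set G) := hmin _ (inf_lt_left.2 hcomm) hLY
  have hYk : (Nat.card Y : k) ≠ 0 := card_ne_zero_of_le hRk inf_le_left
  have hRY : ⁅R, R⁆ ≤ Y := le_inf hRR ((le_inf hRR hR2).trans hR3)
  obtain ⟨c, hc, hcR⟩ := exists_comp_not_le_fix (R := ⁅R, R⁆) hYk hρ
    fun e => hcomm (commutator_eq_bot_iff_le_centralizer.1 e)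
  rw [← le_kerOn_iff] at hcR
  have hsc : Y ≤ scal ρ c := le_scal_of_mem_comps le_rfl
    (inf_le_right.trans (centralizer_le (SetLike.coe_subset_coe.2 inf_le_left))) hc
  obtain ⟨m, hm0, hm⟩ := exists_period (stab ρ c) x
  obtain ⟨i, hi, rfl⟩ := (Nat.dvd_prime_pow Nat.prime_two).1 ((hm (2 ^ n)).1
    (isInv_iff_le_stab.1 (isInv_of_le_centralizer (le_centralizer_iff.1 hZ) hc) (mem_zpowers _)))
  have hst' := (hm _).2 dvd_rfl
  have hAk : (Nat.card (zpowers x) : k) ≠ 0 := by
    rw [Nat.card_zpowers, ho, Nat.cast_pow]; exact pow_ne_zero _ hk2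
  have hB : zpowers x ⊓ stab ρ c = zpowers (x ^ 2 ^ i) := by
    refine le_antisymm ?_ (zpowers_le.2 ⟨npow_mem_zpowers x _, hst'⟩)
    rintro y ⟨hy1, hy2⟩
    obtain ⟨a, rfl⟩ := mem_powers_iff_mem_zpowers.2 hy1
    obtain ⟨b, rfl⟩ := (hm a).1 hy2
    simp only [pow_mul]
    exact npow_mem_zpowers _ b
  have h1 := inf_fix_inf_stab_eq_bot hYk hAY hAk h0 hc
  rw [hB] at h1
  have e1 : (x ^ 2 ^ i) ^ 2 ^ (n - i) = x ^ 2 ^ n := by
    rw [← pow_mul, ← pow_add, Nat.add_sub_cancel' hi]
  have ho' : orderOf (x ^ 2 ^ i) = 2 ^ (n - i + 1) := by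
    rw [orderOf_pow_of_dvd hm0.ne' (ho ▸ pow_dvd_pow 2 (by omega)), ho,
      Nat.pow_div (by omega) two_pos, Nat.sub_add_comm hi]
  set b := x ^ 2 ^ i
  have hbR : b ∈ normalizer (R : Set G) := pow_mem hxR _
  set L := R ⊔ P ⊔ zpowers b
  have hRL : R ≤ L := le_sup_left.trans le_sup_left
  have hPL : P ≤ L := le_sup_right.trans le_sup_left
  have hbL : b ∈ L := mem_sup_right (mem_zpowers b)
  have hLR' : L ≤ normalizer (R : Set G) := sup_le (sup_le le_normalizer hPR) (zpowers_le.2 hbR)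
  obtain ⟨G', _, _, π, σ, h⟩ := exists_isFaithfulOn (L := L)
    (((isInv_of_le_centralizer (le_centralizer_iff.1 inf_le_right) hc).sup_left
      (isInv_of_le_centralizer (le_centralizer_iff.1 hYP) hc)).sup_left
      (isInv_iff_le_stab.2 (zpowers_le.2 hst')))
  haveI := normal_im π h.surj hLR'
  have hRP' : ⁅im π R, im π P⁆ = im π R := by rw [← im_commutator π hRL hPL, hRP]
  have hPY' : ⁅im π P, zpowers (π ⟨b, hbL⟩ ^ 2 ^ (n - i))⁆ = im π P := by
    rw [← map_pow, SubmonoidClass.mk_pow, ← im_zpowers, ← im_commutator π hPL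
      (zpowers_le.2 (pow_mem hbL _)), e1, hPY]
  refine hcR ?_
  rw [← h.im_eq_bot_iff (hRR.trans hRL), im_commutator π hRL hRL]
  by_cases hb1 : π (⟨b, hbL⟩ ^ 2 ^ (n - i)) = 1
  · rw [← map_pow, hb1, zpowers_one_eq_bot, commutator_bot_right] at hPY'
    rw [← hRP', ← hPY', commutator_bot_right, commutator_bot_right]
  exact commutator_eq_bot_iff_le_centralizer.2 (le_centralizer_of_two_pow h.inj (isPGroup_im π hR)
    hk (im_commutator π hRL hRL ▸ h.im_le_scal (hRY.trans hsc)) (by
      rintro _ ⟨g, hg, rfl⟩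
      rw [← map_pow]
      exact mem_centralizer_im π (hR3 ⟨pow_mem hg t, hexp g hg⟩)) (isPGroup_im π hP) hst hRP' ht2
    hs2 hk2 (mem_normalizer_im π (pow_mem hx _))
    (orderOf_map_eq_pow π Nat.prime_two ((Subgroup.orderOf_coe _).symm.trans ho') hb1) hPY'
    (by rw [← im_zpowers, h.fix_eq_bot_iff (zpowers_le.2 hbL), h1]))

theorem exists_le_sup_of_forall_sylow {Γ : Type u} [Group Γ] [Finite Γ] {G Y C : Subgroup Γ}
    [G.Normal] [C.Normal] (hsol : Group.IsSolvable G) (hcop : (Nat.card Y).Coprime (Nat.card G))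
    {t : ℕ} [Fact t.Prime] (h : ∀ (s : ℕ) [Fact s.Prime], s ≠ t →
      ∃ P, Coprime.IsSylowIn s P G ∧ ⁅P, Y⁆ ≤ C) :
    ∃ T : Subgroup Γ, IsPGroup t T ∧ ⁅G, Y⁆ ≤ T ⊔ C := by
  let π₁ := QuotientGroup.mk' C
  let π₂ := QuotientGroup.mk' (pCore t (Γ ⧸ C))
  have hπ : Function.Surjective (π₂.comp π₁) :=
    (QuotientGroup.mk'_surjective _).comp (QuotientGroup.mk'_surjective _)
  haveI : (G.map (π₂.comp π₁)).Normal := Normal.map inferInstance _ hπ
  have h1 := le_centralizer_of_forall_pCore (Core.isSolvable_map hsol (π₂.comp π₁))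
    (coprime_card_map hcop _) fun s _ => by
      by_cases hst : s = t
      · subst hst
        rw [Core.pCore_quotient_pCore, bot_inf_eq]; exact bot_le
      obtain ⟨P, hP, hPY⟩ := h s hst
      refine ((hP.map (π₂.comp π₁)).le_of_le_normalizer inf_le_right
        (Core.isPGroup_pCore s).to_inf_left le_normalizer_of_normal).trans ?_
      rw [← commutator_eq_bot_iff_le_centralizer, ← map_commutator, ← Subgroup.map_map,
        (Core.map_mk_eq_bot_iff _ _).2 hPY, Subgroup.map_bot]
  rw [← Coprime.commutator_eq_bot_iff_le_centralizer', ← map_commutator, ← Subgroup.map_map,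
    Core.map_mk_eq_bot_iff] at h1
  obtain ⟨T, -, hT, e⟩ := exists_isPGroup_map_eq ((Core.isPGroup_pCore t).to_le h1) le_rfl
  exact ⟨T, hT, (Core.map_mk_le_map_mk_iff _ _ _).1 e.ge⟩

theorem Fpf.isNilpotent_commutator_two_pow {Γ : Type u} [Group Γ] [Finite Γ]
    {ρ : Representation k Γ V} (hρ : Function.Injective ρ) {p : ℕ} [Fact p.Prime] [CharP k p]
    (hc : pCore p Γ = ⊥) {G : Subgroup Γ} {x : Γ} (h : Fpf G (zpowers x))
    (hAk : (Nat.card (zpowers x) : k) ≠ 0) (h0 : fix ρ (zpowers x) = ⊥) {n : ℕ}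
    (hx : x ^ 2 ^ (n + 1) = 1) : Group.IsNilpotent (⁅G, zpowers (x ^ 2 ^ n)⁆ : Subgroup Γ) := by
  haveI := h.normal
  by_cases h1 : x ^ 2 ^ n = 1
  · rw [h1, zpowers_one_eq_bot, commutator_bot_right]; infer_instance
  have ho : orderOf x = 2 ^ (n + 1) := orderOf_eq_prime_pow h1 hx
  have h2 : 2 ∣ Nat.card (zpowers x) := by
    rw [Nat.card_zpowers, ho]; exact dvd_pow_self 2 n.succ_ne_zero
  have hk2 : ((2 : ℕ) : k) ≠ 0 := ne_zero_of_dvd_ne_zero hAk (Nat.cast_dvd_cast h2)
  have hne : ∀ q [Fact q.Prime] (X : Subgroup Γ), X ≤ G → IsPGroup q X → X ≠ ⊥ → 2 ≠ q :=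
    fun q _ X h1 h3 h4 e => absurd (Nat.eq_one_of_dvd_coprimes h.cop h2
      (e ▸ (dvd_card_of_isPGroup h3 h4).trans (card_dvd_of_le h1))) (by norm_num)
  have hn := zpowers_le_normalizer_zpowers_pow x (2 ^ n)
  haveI := h.normal_commutator hn
  have hY : zpowers (x ^ 2 ^ n) ≤ zpowers x := zpowers_le.2 (npow_mem_zpowers x _)
  have hle : ⁅G, zpowers (x ^ 2 ^ n)⁆ ≤ G := commutator_le_left _ _
  refine isNilpotent_of_forall_le_sup (Core.isSolvable_of_le h.sol hle) fun t ht =>
    exists_le_sup_of_forall_sylow h.sol (Coprime.coprime_mono h.cop hY le_rfl) fun s hs hst => ?_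
  obtain ⟨P, hP, hAP⟩ := Coprime.exists_invariant_sylow s le_normalizer_of_normal h.cop
    (Or.inr h.sol)
  refine ⟨P, hP, ?_⟩
  have hO : IsPGroup t ↥(pCore t Γ ⊓ ⁅G, zpowers (x ^ 2 ^ n)⁆) :=
    (Core.isPGroup_pCore t).to_inf_left
  by_cases hO0 : pCore t Γ ⊓ ⁅G, zpowers (x ^ 2 ^ n)⁆ = ⊥
  · rw [hO0, le_centralizer_iff]; exact bot_le
  by_cases hP0 : P = ⊥
  · rw [hP0, commutator_bot_left]; exact bot_le
  have htp : t ≠ p := fun e => hO0 (by rw [e, hc, bot_inf_eq])
  exact le_centralizer_commutator_two_pow hρ hO (natCast_ne_zero_of_ne k ht.out htp)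
    (hP.2.1.to_le (Coprime.commutator_le_of_le_normalizer (hY.trans hAP))) hst
    le_normalizer_of_normal (hne t _ (inf_le_right.trans hle) hO hO0) (hne s P hP.1 hP.2.1 hP0) hk2
    (le_normalizer_of_normal (mem_top _)) (Core.le_normalizer_commutator hAP hn (mem_zpowers x)) ho
    (Coprime.commutator_commutator_eq (hY.trans hAP) (Coprime.coprime_mono h.cop hY hP.1)
      (Or.inl inferInstance)) h0

theorem Fpf.lns_commutator_two_pow {Γ : Type u} [Group Γ] [Finite Γ] {G : Subgroup Γ} {x : Γ}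
    (h : Fpf G (zpowers x)) {n : ℕ} (hx : x ^ 2 ^ (n + 1) = 1) :
    lns ⁅G, zpowers (x ^ 2 ^ n)⁆ 2 = ⊥ := by
  haveI := h.normal
  haveI := h.normal_commutator (zpowers_le_normalizer_zpowers_pow x (2 ^ n))
  refine lns_succ_eq_bot_iff.2 (h.isNilpotent_of_forall_rep (N := nres ⁅G, zpowers (x ^ 2 ^ n)⁆)
    ((nres_le _).trans (commutator_le_left _ _))
    fun p _ Γ' _ _ π hπ W _ _ _ ρ hρ hc hp h0 => ?_)
  have h' := h.map hπ
  have hp' : ¬ p ∣ Nat.card ((zpowers x).map π) := fun hd => hp (hd.trans (card_map_dvd _ π))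
  rw [MonoidHom.map_zpowers] at h' h0 hp'
  rw [map_nres, nres_eq_bot_iff, map_commutator, MonoidHom.map_zpowers, map_pow]
  exact h'.isNilpotent_commutator_two_pow hρ hc (natCast_ne_zero_of_not_dvd _ hp') h0
    (by rw [← map_pow, hx, map_one])

/-- Gross's theorem. -/
theorem Fpf.lns_eq_bot_of_two_pow {Γ : Type u} [Group Γ] [Finite Γ] {G : Subgroup Γ} {x : Γ}
    (h : Fpf G (zpowers x)) {n : ℕ} (hx : x ^ 2 ^ (n + 2) = 1) : lns G (2 * n + 2) = ⊥ := by
  induction n generalizing Γ with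
  | zero =>
    refine lns_add_eq_bot (a := 1) (b := 1) (nres_le_lcs G 1) ?_
    exact lns_one_eq_bot_iff.2 (h.isNilpotent_commutator_of_pow_four hx)
  | succ n ih =>
    refine lns_add_eq_bot (a := 2 * n + 2) (h.lns_le_commutator
      (zpowers_le.2 (npow_mem_zpowers x (2 ^ (n + 2))))
      (zpowers_le_normalizer_zpowers_pow x _) fun Γ' _ _ π hπ hk => ?_)
      (h.lns_commutator_two_pow hx)
    have h' := h.map hπ
    rw [MonoidHom.map_zpowers] at h'
    exact ih h' (by rw [← map_pow]; exact hk (mem_zpowers _))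

end Cfsg.Agent.Mod
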