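import Mathlib
import Cfsg.Agent.Lib.Mod.TwoPrimes
import Cfsg.Agent.Lib.Mod.OrderFour
import Cfsg.Agent.Lib.Core.Subnormal

/-! Fixed-point-free coprime action of the symmetric group of degree three. -/

namespace Cfsg.Agent.Mod

open Module Polynomial Subgroup
open scoped commutatorElement

universe u

section Groups

variable {Γ : Type*} [Group Γ]

theorem eq_of_mem_zpowers_three {f x : Γ} (hf : f ^ 3 = 1) (hx : x ∈ zpowers f) :
    x = 1 ∨ x = f ∨ x = f⁻¹ := by
  obtain ⟨i, rfl⟩ := hx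
  have h : f ^ i = f ^ (i % 3) := zpow_eq_zpow_emod i (by exact_mod_cast hf)
  have h2 : f ^ (2 : ℤ) = f⁻¹ := by
    rw [eq_inv_iff_mul_eq_one, ← zpow_add_one]; exact_mod_cast hf
  have : i % 3 = 0 ∨ i % 3 = 1 ∨ i % 3 = 2 := by omega
  simp only [h]
  rcases this with e | e | e <;> simp [e, h2]

theorem normalizer_zpowers_of_inv {f h : Γ} (hh : h ^ 2 = 1) (hhf : h * f * h⁻¹ = f⁻¹) :
    zpowers h ≤ normalizer (zpowers f : Set Γ) := by
  have key : ∀ x ∈ zpowers f, h * x * h⁻¹ ∈ zpowers f := by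
    rintro _ ⟨i, rfl⟩
    rw [← conj_zpow, hhf]
    exact zpow_mem (inv_mem (mem_zpowers f)) i
  have e : h⁻¹ = h := by rw [inv_eq_iff_mul_eq_one, ← sq, hh]
  refine zpowers_le.2 (mem_normalizer_iff.2 fun x => ⟨key x, fun hx => ?_⟩)
  have := key _ hx
  rwa [e, ← mul_assoc, ← mul_assoc, ← sq, hh, one_mul, mul_assoc, ← sq, hh, mul_one] at this

variable [Finite Γ]

theorem commutator_le_of_sym_three {G Q K : Subgroup Γ} [G.Normal] [Q.Normal] {f h : Γ}
    (hf : f ^ 3 = 1) (hh : h ^ 2 = 1) (hhf : h * f * h⁻¹ = f⁻¹)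
    (hsup : G ⊔ (zpowers h ⊔ zpowers f) = ⊤) (hQG : Q ≤ G) (hsol : Group.IsSolvable Q)
    (hcop : (Nat.card ↥(zpowers h ⊔ zpowers f)).Coprime (Nat.card Q))
    (hfpf : Q ⊓ centralizer ((zpowers h ⊔ zpowers f : Subgroup Γ) : Set Γ) = ⊥) (hKQ : K ≤ Q)
    (hGK : G ≤ normalizer (K : Set Γ)) (hQh : ⁅Q, zpowers h⁆ ≤ K) : ⁅Q, Q⁆ ≤ K := by
  have hhK := Coprime.le_normalizer_of_commutator_le hKQ hQh
  have hcore : ∀ x ∈ K, f * x * f⁻¹ ∈ K → f⁻¹ * x * f ∈ K → x ∈ K.normalCore := by
    intro x h0 h1 h2 γ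
    obtain ⟨g, hg, a, ha, rfl⟩ := (Core.mem_sup_of_le_normalizer' le_normalizer_of_normal).1
      (hsup.ge (mem_top γ))
    obtain ⟨b, hb, c, hc, rfl⟩ :=
      (Core.mem_sup_of_le_normalizer (normalizer_zpowers_of_inv hh hhf)).1 ha
    have e : g * (b * c) * x * (g * (b * c))⁻¹ = (g * b) * (c * x * c⁻¹) * (g * b)⁻¹ := by group
    rw [e]
    refine Reg.conj_mem_of_mem_normalizer (mul_mem (hGK hg) (hhK hb)) ?_
    rcases eq_of_mem_zpowers_three hf hc with rfl | rfl | rfl
    · simpa using h0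
    · exact h1
    · simpa using h2
  have hGK' : ∀ a : Γ, G ≤ normalizer ((K.map (MulAut.conj a).toMonoidHom : Subgroup Γ) : Set Γ) :=
    fun a => by
      rw [Core.normalizer_map_conj]
      exact fun g hg => Core.mem_map_conj.2 (hGK (Normal.conj_mem' inferInstance g hg a))
  have hKQ' : ∀ a : Γ, K.map (MulAut.conj a).toMonoidHom ≤ Q := fun a x hx => by
    simpa [mul_assoc] using Normal.conj_mem inferInstance _ (hKQ (Core.mem_map_conj.1 hx)) a
  have hsupK : ∀ a : Γ, f ∈ zpowers h ⊔ zpowers (a * h * a⁻¹) →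
      Q ≤ K ⊔ K.map (MulAut.conj a).toMonoidHom := fun a ha => by
    have h1 : ⁅Q, zpowers (a * h * a⁻¹)⁆ ≤ K.map (MulAut.conj a).toMonoidHom := by
      have := map_mono (f := (MulAut.conj a).toMonoidHom) hQh
      rwa [map_commutator, MonoidHom.map_zpowers,
        Core.map_conj_eq_iff.2 (le_normalizer_of_normal (mem_top a))] at this
    have h2 := hQh.trans (le_sup_left (b := K.map (MulAut.conj a).toMonoidHom))
    have h3 := h1.trans (le_sup_right (a := K))
    have h4 := sup_le hKQ (hKQ' a)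
    refine (commutator_eq_of_fpf le_normalizer_of_normal hcop (Or.inr hsol) hfpf).ge.trans
      ((commutator_mono le_rfl (sup_le le_sup_left (zpowers_le.2 ha))).trans ?_)
    exact Reg.commutator_sup_right_le (Coprime.le_normalizer_of_commutator_le h4 h2)
      (Coprime.le_normalizer_of_commutator_le h4 h3) h2 h3
  have e1 : f * f = f⁻¹ := by rw [eq_inv_iff_mul_eq_one, ← hf, pow_succ, sq]
  have e2 : h⁻¹ = h := by rw [inv_eq_iff_mul_eq_one, ← sq, hh]
  have e3 : h * f = f⁻¹ * h := by rw [← hhf]; group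
  have e4 : h * f⁻¹ = f * h := by
    rw [← mul_left_inj f, inv_mul_cancel_right, mul_assoc, e3, mul_inv_cancel_left]
  have e5 : h * h = 1 := by rw [← sq, hh]
  set K₁ := K.map (MulAut.conj f).toMonoidHom
  set K₂ := K.map (MulAut.conj f⁻¹).toMonoidHom
  have hQ1 : Q ≤ K ⊔ K₁ := hsupK f (by
    have : f = h * (f * h * f⁻¹) := by
      rw [← mul_assoc, ← mul_assoc, e3, mul_assoc f⁻¹, e5, mul_one, ← mul_inv_rev, e1, inv_inv]
    have h1 := mul_mem_sup (mem_zpowers h) (mem_zpowers (f * h * f⁻¹))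
    rwa [← this] at h1)
  have hQ2 : Q ≤ K ⊔ K₂ := hsupK f⁻¹ (by
    have : f⁻¹ = h * (f⁻¹ * h * f⁻¹⁻¹) := by
      rw [← mul_assoc, ← mul_assoc, e4, mul_assoc f, e5, mul_one, inv_inv, e1]
    have h1 := mul_mem_sup (mem_zpowers h) (mem_zpowers (f⁻¹ * h * f⁻¹⁻¹))
    rwa [← this, inv_mem_iff] at h1)
  have hQK := hQG.trans hGK
  have hK12 : K₁ ⊓ K₂ ≤ K := by
    rintro y ⟨hy1, hy2⟩
    have hyQ := hKQ' f hy1
    have hy1' := Core.mem_map_conj.1 hy1
    have hy2' : f * y * f⁻¹ ∈ K := by simpa using Core.mem_map_conj.1 hy2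
    let π := QuotientGroup.mk' K.normalCore
    have hπ : ∀ {x}, x ∈ K.normalCore → π x = 1 := fun hx => (QuotientGroup.eq_one_iff _).2 hx
    -- commutators between the three conjugates
    have hc : ∀ a b : Γ, a ∈ Q → b ∈ Q → (a ∈ K ∨ b ∈ K) → (a ∈ K₂ ∨ b ∈ K₂) →
        (a ∈ K₁ ∨ b ∈ K₁) → Commute (π a) (π b) := fun a b ha hb h0 h1 h2 => by
      have key : ∀ N : Subgroup Γ, G ≤ normalizer (N : Set Γ) → (a ∈ N ∨ b ∈ N) → ⁅a, b⁆ ∈ N :=
        fun N hN h => h.elim (fun h => Coprime.commutator_le_of_le_normalizer (hQG.trans hN)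
          (commutator_mem_commutator h hb)) fun h => by
            rw [← commutatorElement_inv]
            exact inv_mem (Coprime.commutator_le_of_le_normalizer (hQG.trans hN)
              (commutator_mem_commutator h ha))
      rw [← commutatorElement_eq_one_iff_commute, ← map_commutatorElement]
      exact hπ (hcore _ (key K hGK h0)
        (by simpa using Core.mem_map_conj.1 (key K₂ (hGK' _) h1))
        (Core.mem_map_conj.1 (key K₁ (hGK' _) h2)))
    have hy0 : y ∈ K₁ ⊓ K₂ := ⟨hy1, hy2⟩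
    have hy12 : f * y * f⁻¹ ∈ K₂ := Core.mem_map_conj.2 (by
      have : f⁻¹⁻¹ * (f * y * f⁻¹) * f⁻¹ = f⁻¹ * y * f := by
        rw [inv_inv, ← mul_assoc, ← mul_assoc, e1, mul_assoc _ f⁻¹, ← mul_inv_rev, e1, inv_inv]
      rwa [this])
    have hy21 : f⁻¹ * y * f ∈ K₁ := Core.mem_map_conj.2 (by
      have : f⁻¹ * (f⁻¹ * y * f) * f = f * y * f⁻¹ := by
        rw [← mul_assoc, ← mul_assoc, ← mul_inv_rev, e1, inv_inv, mul_assoc _ f f, e1]
      rwa [this])
    have c01 := hc y _ hyQ (hKQ hy2') (Or.inr hy2') (Or.inl hy2) (Or.inl hy1)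
    have c02 := hc y _ hyQ (hKQ hy1') (Or.inr hy1') (Or.inl hy2) (Or.inl hy1)
    have c12 := hc _ _ (hKQ hy2') (hKQ hy1') (Or.inl hy2') (Or.inl hy12) (Or.inr hy21)
    have hyh : π h * π y = π y * π h := by
      rw [← commutatorElement_eq_one_iff_mul_comm, ← map_commutatorElement,
        ← commutatorElement_inv]
      refine hπ (inv_mem (hcore _ (hQh (commutator_mem_commutator hyQ (mem_zpowers h))) ?_ ?_))
      · have : f * ⁅y, h⁆ * f⁻¹ = (f * y * f⁻¹) * (h * (f⁻¹ * y * f)⁻¹ * h⁻¹) := by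
          rw [commutatorElement_def, e2]
          calc _ = f * y * h * y⁻¹ * (h * f⁻¹) := by group
            _ = f * y * f⁻¹ * (f * h) * y⁻¹ * (f * h) := by rw [e4]; group
            _ = _ := by nth_rewrite 1 [← e4]; group
        rw [this]
        exact mul_mem hy2' (Reg.conj_mem_of_mem_normalizer (hhK (mem_zpowers h)) (inv_mem hy1'))
      · have : f⁻¹ * ⁅y, h⁆ * f = (f⁻¹ * y * f) * (h * (f * y * f⁻¹)⁻¹ * h⁻¹) := by
          rw [commutatorElement_def, e2]
          calc _ = f⁻¹ * y * h * y⁻¹ * (h * f) := by group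
            _ = f⁻¹ * y * f * (f⁻¹ * h) * y⁻¹ * (f⁻¹ * h) := by rw [e3]; group
            _ = _ := by nth_rewrite 1 [← e3]; group
        rw [this]
        exact mul_mem hy1' (Reg.conj_mem_of_mem_normalizer (hhK (mem_zpowers h)) (inv_mem hy2'))
    have hu : y * (f * y * f⁻¹) * (f⁻¹ * y * f) ∈ K.normalCore := by
      refine mem_of_forall_commutator_mem (R := Q) le_normalizer_of_normal
        (Coprime.coprime_mono hcop le_rfl ((normalCore_le K).trans hKQ))
        (Or.inr (Core.isSolvable_of_le hsol ((normalCore_le K).trans hKQ)))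
        ((normalCore_le K).trans hKQ) (by rw [hfpf]; exact bot_le)
        (mul_mem (mul_mem hyQ (hKQ hy2')) (hKQ hy1')) fun x hx => ?_
      rw [← QuotientGroup.eq_one_iff]
      change π _ = 1
      rw [map_commutatorElement, commutatorElement_eq_one_iff_commute]
      have hle : zpowers h ⊔ zpowers f ≤
          (centralizer {π (y * (f * y * f⁻¹) * (f⁻¹ * y * f))}).comap π := by
        refine sup_le (zpowers_le.2 ?_) (zpowers_le.2 ?_)
        · rw [mem_comap, mem_centralizer_singleton_iff, map_mul (π) (y * _), map_mul π y]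
          have a1 : π h * π (f * y * f⁻¹) = π (f⁻¹ * y * f) * π h := by
            have b1 := congrArg π e3
            have b2 := congrArg π e4
            simp only [map_mul] at b1 b2 ⊢
            rw [← mul_assoc, ← mul_assoc, b1, mul_assoc (π f⁻¹), hyh, mul_assoc, mul_assoc, b2]
            simp only [mul_assoc]
          have a2 : π h * π (f⁻¹ * y * f) = π (f * y * f⁻¹) * π h := by
            have b1 := congrArg π e3
            have b2 := congrArg π e4
            simp only [map_mul] at b1 b2 ⊢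
            rw [← mul_assoc, ← mul_assoc, b2, mul_assoc (π f), hyh, mul_assoc, mul_assoc, b1]
            simp only [mul_assoc]
          generalize π (f * y * f⁻¹) = u at *
          generalize π (f⁻¹ * y * f) = v at *
          calc π h * (π y * u * v) = π y * (π h * u) * v := by
                rw [← mul_assoc, ← mul_assoc, hyh]; simp only [mul_assoc]
            _ = π y * (v * u) * π h := by rw [a1, mul_assoc, mul_assoc, a2]; simp only [mul_assoc]
            _ = π y * u * v * π h := by rw [← c12.eq]; simp only [mul_assoc]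
        · rw [mem_comap, mem_centralizer_singleton_iff]
          have a1 : f * (y * (f * y * f⁻¹) * (f⁻¹ * y * f)) =
              (f * y * f⁻¹) * (f⁻¹ * y * f) * y * f := by
            calc _ = f * y * f⁻¹ * ((f * f) * y * (f * f)⁻¹) * y * f := by group
              _ = _ := by rw [e1, inv_inv]
          rw [← map_mul, a1, map_mul, map_mul, map_mul, map_mul (π) (y * _), map_mul π y,
            mul_assoc (π _) (π _) (π y), ← c02.eq, ← mul_assoc, ← c01.eq]
      exact (mem_centralizer_singleton_iff.1 (hle hx)).symm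
    exact (K.mul_mem_cancel_right hy2').1 ((K.mul_mem_cancel_right hy1').1 (normalCore_le K hu))
  have hKK : ∀ X ≤ Q, ⁅K, X⁆ ≤ K := fun X hX =>
    Coprime.commutator_le_of_le_normalizer (hX.trans hQK)
  refine (commutator_mono hQ1 hQ2).trans (Reg.commutator_sup_left_le le_normalizer
    ((hKQ' f).trans hQK) (hKK _ (sup_le hKQ (hKQ' _))) (Reg.commutator_sup_right_le le_normalizer
      ((hKQ' _).trans hQK) (by rw [commutator_comm]; exact hKK _ (hKQ' _)) (le_trans ?_ hK12)))
  exact le_inf (Coprime.commutator_le_of_le_normalizer ((hKQ' _).trans (hQG.trans (hGK' _))))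
    (le_normalizer_iff_commutator_le_right.1 ((hKQ' _).trans (hQG.trans (hGK' _))))

theorem commute_pCore {s t : ℕ} [Fact s.Prime] [Fact t.Prime] (h : s ≠ t) :
    pCore s Γ ≤ centralizer (pCore t Γ : Set Γ) := by
  rw [← commutator_eq_bot_iff_le_centralizer, ← le_bot_iff, ← Core.inf_eq_bot_of_coprime_card
    (coprime_card_of_isPGroup h (Core.isPGroup_pCore s) (Core.isPGroup_pCore t))]
  exact commutator_le_inf _ _

theorem le_centralizer_of_isNilpotent {G Y : Subgroup Γ} [G.Normal] (hG : Group.IsNilpotent G)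
    {t : ℕ} [Fact t.Prime] (hY : Y ≤ pCore t Γ)
    (h : pCore t Γ ⊓ G ≤ centralizer (Y : Set Γ)) : G ≤ centralizer (Y : Set Γ) := by
  refine le_trans (le_inf (Core.le_fitting hG) le_rfl)
    (fitting_inf_le_of_forall_pCore fun s _ => ?_)
  by_cases hst : s = t
  · subst hst; exact h
  · exact inf_le_left.trans ((commute_pCore hst).trans
      (centralizer_le (SetLike.coe_subset_coe.2 hY)))

end Groups

variable {k V : Type*} [Field k] [AddCommGroup V] [Module k V] [IsAlgClosed k]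
  [FiniteDimensional k V]

theorem commutator_le_kerOn_or {G : Type*} [Group G] [Finite G] {ρ : Representation k G V}
    {q : ℕ} [hq : Fact q.Prime] {Q : Subgroup G} (hQ : IsPGroup q Q) (hk : (q : k) ≠ 0) {r : ℕ}
    (hr : r.Prime) (hrq : r ≠ q) {x : G} (hx : x ∈ normalizer (Q : Set G)) (ho : orderOf x = r)
    {X : Submodule k V} (hQX : IsInv ρ Q X) (hxX : x ∈ stab ρ X)
    (h0 : X ⊓ fix ρ (zpowers x) = ⊥) :
    ⁅Q, zpowers x⁆ ≤ kerOn ρ X ∨ ∃ d, 0 < d ∧ q ^ d + 1 = r := by
  refine or_iff_not_imp_left.2 fun hne => ?_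
  have hle := isInv_iff_le_stab.1 hQX
  have ho' : orderOf (⟨x, hxX⟩ : stab ρ X) = r ^ (0 + 1) := by
    rw [← Subgroup.orderOf_coe, ho, zero_add, pow_one]
  have hpos : 0 < r ^ (0 + 1) := pow_pos hr.pos _
  obtain ⟨-, i, hi, d, hd, h1, -⟩ := hallHigman' (ρ := restr ρ X)
    (Coprime.isPGroup_subgroupOf hQ (stab ρ X)) hk hr hrq (x := ⟨x, hxX⟩)
    (mem_normalizer_subgroupOf hx) ho' (fun h => hne (by
      refine commutator_le.2 fun a ha b hb => ?_
      refine Reg.commutator_mem_of_closure_right (T := {x}) (fun t ht => ?_)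
        (fun t ht => ?_) (zpowers_eq_closure x ▸ hb)
      · exact ht ▸ normalizer_kerOn (isInv_stab X) hxX
      · have := restr_eq_one_iff.1 (h ⟨a, hle ha⟩ ha)
        rw [pow_zero, pow_one] at this
        exact ht ▸ this)) (geom_ne_zero hpos.ne')
    (aeval_geom_eq_zero (by rw [← ho', pow_orderOf_eq_one, map_one]) (by
      rw [← zpowers_subgroupOf, ← (Submodule.map_injective_of_injective X.subtype_injective).eq_iff,
        map_fix_restr (zpowers_le.2 hxX), h0, Submodule.map_bot]))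
    ((natDegree_geom_le _).trans_lt (by omega))
  rw [Nat.le_zero.1 hi, zero_add, Nat.sub_zero, pow_one] at h1
  exact ⟨d, hd, h1⟩

theorem Fpf.commutator_eq_bot_of_sym_three {Γ : Type u} [Group Γ] [Finite Γ]
    {ρ : Representation k Γ V} (hρ : Function.Injective ρ) {p : ℕ} [Fact p.Prime] [CharP k p]
    (hc : pCore p Γ = ⊥) {G : Subgroup Γ} {f h : Γ} (hf : f ^ 3 = 1) (hh : h ^ 2 = 1)
    (hhf : h * f * h⁻¹ = f⁻¹) (hG : Fpf G (zpowers h ⊔ zpowers f))
    (hAk : (Nat.card ↥(zpowers h ⊔ zpowers f) : k) ≠ 0)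
    (h0 : fix ρ (zpowers h ⊔ zpowers f) = ⊥) : ⁅G, G⁆ = ⊥ := by
  haveI := hG.normal
  by_cases hf1 : f = 1
  · refine commutator_eq_bot_of_fpf_of_sq (x := h) (le_normalizer_of_normal (mem_top _)) ?_
      (hh ▸ one_mem _)
    rw [← hG.fpf, hf1, zpowers_one_eq_bot, sup_bot_eq]
  have hof : orderOf f = 3 := orderOf_eq_prime hf hf1
  have hoh : ∀ h : Γ, h ^ 2 = 1 → h * f * h⁻¹ = f⁻¹ → orderOf h = 2 := fun h hh hhf =>
    orderOf_eq_prime hh fun e => by
      rw [e, one_mul, inv_one, mul_one, eq_inv_iff_mul_eq_one, ← sq,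
        ← orderOf_dvd_iff_pow_eq_one, hof] at hhf
      omega
  have hn := normalizer_zpowers_of_inv hh hhf
  set A := zpowers h ⊔ zpowers f with hA
  have hcard : Nat.card A = 2 * 3 := by
    rw [Core.card_sup_of_disjoint hn (Core.inf_eq_bot_of_coprime_card (by
      rw [Nat.card_zpowers, Nat.card_zpowers, hoh h hh hhf, hof]; norm_num)),
      Nat.card_zpowers, Nat.card_zpowers, hoh h hh hhf, hof]
  have h2 : TwoPrimes A := ⟨2, 3, Nat.prime_two, Nat.prime_three, hcard⟩
  have hnil := hG.isNilpotent_of_twoPrimes hρ hc hAk h0 h2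
  rw [commutator_eq_bot_iff_le_centralizer]
  refine le_trans (le_inf (Core.le_fitting hnil) le_rfl)
    (fitting_inf_le_of_forall_pCore fun t ht => ?_)
  rw [le_centralizer_iff]
  refine le_centralizer_of_isNilpotent hnil inf_le_left ?_
  rw [← commutator_eq_bot_iff_le_centralizer]
  by_contra hne
  set Q := pCore t Γ ⊓ G
  have hQ : IsPGroup t Q := (Core.isPGroup_pCore t).to_inf_left
  have hQ0 : Q ≠ ⊥ := fun e => hne (by rw [e, commutator_bot_left])
  have htp : t ≠ p := fun e => hQ0 (by simp only [Q]; rw [e, hc, bot_inf_eq])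
  have htk : (t : k) ≠ 0 := natCast_ne_zero_of_ne k ht.out htp
  have hQk := card_ne_zero_of_isPGroup hQ htk
  have hsol := Coprime.isSolvable_of_isPGroup hQ
  have hcop := Coprime.coprime_mono hG.cop le_rfl (inf_le_right : Q ≤ G)
  have ht6 : t.Coprime (2 * 3) := (hcard ▸ hcop).symm.coprime_dvd_left (dvd_card_of_isPGroup hQ hQ0)
  have hfpf : ∀ X ≤ G, X ⊓ centralizer (A : Set Γ) = ⊥ := fun X hX =>
    le_bot_iff.1 (hG.fpf ▸ inf_le_inf_right _ hX)
  set Y := Q ⊓ centralizer (Q : Set Γ)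
  have hYk : (Nat.card Y : k) ≠ 0 := card_ne_zero_of_le hQk inf_le_left
  obtain ⟨c, hc, hcR⟩ := exists_comp_not_le_fix (R := ⁅Q, Q⁆ ⊓ centralizer (Q : Set Γ)) hYk hρ
    (PGrp.inf_centralizer_ne_bot hQ (hQ.to_le (commutator_le_left _ _)) le_normalizer_of_normal hne)
  rw [← le_kerOn_iff] at hcR
  have hsc : Y ≤ scal ρ c := le_scal_of_mem_comps le_rfl
    (inf_le_right.trans (centralizer_le (SetLike.coe_subset_coe.2 inf_le_left))) hc
  have hBA : A ⊓ stab ρ c < A := inf_lt_left.2 fun e => hcR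
    ((inf_le_inf_right _ (commutator_le_left _ _)).trans
    (le_kerOn_of_le_stab hsc e (commutator_eq_of_fpf le_normalizer_of_normal
      (Coprime.coprime_mono hcop le_rfl inf_le_left)
      (Or.inr (Core.isSolvable_of_le hsol inf_le_left))
      (hfpf _ (inf_le_left.trans inf_le_right)))))
  have hB0 := inf_stab_ne_bot hYk le_normalizer_of_normal hAk h0 hc
  have hl := (h2.prime hBA hB0).1
  obtain ⟨b, hb, ho⟩ := exists_zpowers_eq_of_prime_card hl rfl
  have hb' : b ∈ A ⊓ stab ρ c := hb ▸ mem_zpowers b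
  have hGc : IsInv ρ G c := isInv_of_le_centralizer (le_centralizer_of_isNilpotent hnil
    (inf_le_left.trans inf_le_left) (le_centralizer_iff.1 inf_le_right)) hc
  have hl6 : Nat.card ↥(A ⊓ stab ρ c) ∣ 2 * 3 := hcard ▸ card_dvd_of_le inf_le_left
  have hQb : ⁅Q, zpowers b⁆ ≤ Q ⊓ kerOn ρ c := by
    refine le_inf (commutator_le_left _ _) ((commutator_le_kerOn_or hQ htk hl (fun e => ?_)
      (le_normalizer_of_normal (mem_top _)) ho (hGc.mono inf_le_right) hb'.2
      (by rw [hb]; exact inf_fix_inf_stab_eq_bot hYk le_normalizer_of_normal hAk h0 hc)).resolve_right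
      ?_)
    · exact ht.out.one_lt.ne' (Nat.eq_one_of_dvd_coprimes ht6 dvd_rfl (e ▸ hl6))
    · rintro ⟨d, hd, e⟩
      rw [eq_two_of_pow_add_one_eq_prime ht.out hl e hd] at ht6
      norm_num at ht6
  have hGK : G ≤ normalizer ((Q ⊓ kerOn ρ c : Subgroup Γ) : Set Γ) :=
    Core.le_normalizer_inf le_normalizer_of_normal (normalizer_kerOn hGc)
  refine hcR (inf_le_left.trans (le_trans ?_ (inf_le_right : Q ⊓ kerOn ρ c ≤ _)))
  obtain ⟨x, hx, y, hy, rfl⟩ := (Core.mem_sup_of_le_normalizer hn).1 hb'.1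
  have hx' : x = 1 ∨ x = h := by
    obtain ⟨i, rfl⟩ := hx
    have e : h ^ i = h ^ (i % 2) := zpow_eq_zpow_emod i (by exact_mod_cast hh)
    rcases Int.emod_two_eq_zero_or_one i with e1 | e1 <;> simp [e, e1]
  rcases hx' with rfl | rfl
  · rw [one_mul] at *
    have e : zpowers y = zpowers f := h2.eq_of_le (hb ▸ hB0) (zpowers_le.2 hy)
      (lt_of_le_of_ne le_sup_right fun e => by
        rw [← e, Nat.card_zpowers, hof] at hcard; omega)
    rw [e] at hQb
    have hC : ⁅Q ⊓ centralizer (zpowers f : Set Γ), Q ⊓ centralizer (zpowers f : Set Γ)⁆ = ⊥ := by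
      refine commutator_eq_bot_of_fpf_of_sq (x := h) (Core.le_normalizer_inf
        le_normalizer_of_normal (Core.le_normalizer_centralizer hn) (mem_zpowers h)) ?_
        (hh ▸ one_mem _)
      rw [← le_bot_iff, ← hfpf Q inf_le_right]
      refine le_inf (inf_le_left.trans inf_le_left) ?_
      rw [le_centralizer_iff]
      exact sup_le (le_centralizer_iff.1 inf_le_right)
        (le_centralizer_iff.1 (inf_le_left.trans inf_le_right))
    have hQ' := Coprime.centralizer_sup_eq_of_commutator_le inf_le_left hQb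
      (Coprime.coprime_mono hcop le_sup_right inf_le_left) (Or.inl inferInstance)
    have hQK := (inf_le_right : Q ≤ G).trans hGK
    refine (commutator_mono hQ'.ge hQ'.ge).trans (Reg.commutator_sup_left_le
      (inf_le_left.trans hQK) le_normalizer (Reg.commutator_sup_right_le (inf_le_left.trans hQK)
        le_normalizer (hC ▸ bot_le) ?_) ?_)
    · exact le_normalizer_iff_commutator_le_right.1 (inf_le_left.trans hQK)
    · exact Coprime.commutator_le_of_le_normalizer (hQ'.le.trans hQK)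
  · have hyf : Commute y f := by
      obtain ⟨i, rfl⟩ := hy
      exact (Commute.refl f).zpow_left i
    have e1 : x * y * x⁻¹ = y⁻¹ := by
      obtain ⟨i, rfl⟩ := hy
      simp only [← conj_zpow, hhf, inv_zpow]
    have e2 : zpowers (x * y) ⊔ zpowers f = A := le_antisymm
      (sup_le (zpowers_le.2 hb'.1) le_sup_right) (sup_le (zpowers_le.2 (by
        simpa using mul_mem_sup (mem_zpowers (x * y)) (inv_mem hy))) le_sup_right)
    refine commutator_le_of_sym_three (h := x * y) hf ?_ ?_ (e2 ▸ hG.sup) inf_le_right hsol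
      (e2 ▸ hcop) (e2 ▸ hfpf Q inf_le_right) inf_le_left hGK hQb
    · calc (x * y) ^ 2 = (x * y * x⁻¹) * x ^ 2 * y := by rw [sq, sq]; group
        _ = 1 := by rw [e1, hh]; group
    · rw [mul_assoc x y f, hyf.eq, ← hhf]; group

theorem Fpf.isNilpotent_commutator_of_sym_three {Γ : Type u} [Group Γ] [Finite Γ]
    {G : Subgroup Γ} {f h : Γ} (hf : f ^ 3 = 1) (hh : h ^ 2 = 1)
    (hhf : h * f * h⁻¹ = f⁻¹) (hG : Fpf G (zpowers h ⊔ zpowers f)) :
    Group.IsNilpotent (⁅G, G⁆ : Subgroup Γ) := by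
  haveI := hG.normal
  refine hG.isNilpotent_of_forall_rep (commutator_le_left _ _)
    fun p _ Γ' _ _ π hπ W _ _ _ ρ hρ hc hp h0 => ?_
  have h' := hG.map hπ
  have hp' : ¬ p ∣ Nat.card ((zpowers h ⊔ zpowers f).map π) := fun hd =>
    hp (hd.trans (card_map_dvd _ π))
  rw [Subgroup.map_sup, MonoidHom.map_zpowers, MonoidHom.map_zpowers] at h' h0 hp'
  rw [map_commutator]
  exact Fpf.commutator_eq_bot_of_sym_three hρ hc (by rw [← map_pow, hf, map_one])
    (by rw [← map_pow, hh, map_one]) (by rw [← map_inv, ← map_mul, ← map_mul, hhf, map_inv]) h'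
    (natCast_ne_zero_of_not_dvd _ hp') h0

end Cfsg.Agent.Mod
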